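import Mathlib
import Cfsg.Prelude.Def_PLocal

set_option autoImplicit false

namespace Cfsg.Agent.Helper23

universe u

open scoped commutatorElement

theorem powerClosure_map {G H : Type*} [Group G] [Group H] (f : H →* G) (p n : ℕ)
    (L : Subgroup H) :
    Cfsg.powerClosure p n (L.map f) = (Cfsg.powerClosure p n L).map f := by
  unfold Cfsg.powerClosure
  rw [MonoidHom.map_closure]
  congr 1
  ext y
  constructor
  · rintro ⟨x, ⟨z, hz, rfl⟩, rfl⟩
    exact ⟨z ^ (p ^ n), ⟨z, hz, rfl⟩, by simp⟩
  · rintro ⟨w, ⟨z, hz, rfl⟩, rfl⟩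
    exact ⟨f z, ⟨z, hz, rfl⟩, by simp⟩

/-- subgroups of regular `p`-groups are regular -/
theorem regular_subgroup {G : Type*} [Group G] {p : ℕ} (hG : Cfsg.IsRegularPGroup p G)
    (H : Subgroup G) : Cfsg.IsRegularPGroup p H := by
  refine ⟨hG.1.to_subgroup H, ?_⟩
  intro a b n
  obtain ⟨c, hc, hceq⟩ := hG.2 (a : G) (b : G) n
  have h1 : Subgroup.closure ({(a : G), (b : G)} : Set G)
      = (Subgroup.closure ({a, b} : Set H)).map H.subtype := by
    rw [MonoidHom.map_closure]
    congr 1
    simp [Set.image_pair]
  rw [h1, ← Subgroup.map_commutator, powerClosure_map] at hc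
  obtain ⟨c', hc', rfl⟩ := hc
  refine ⟨c', hc', ?_⟩
  apply Subtype.ext
  simpa using hceq

theorem card_lt_of_ne_top {K : Type*} [Group K] [Finite K] (H : Subgroup K) (h : H ≠ ⊤) :
    Nat.card H < Nat.card K := by
  have h1 := Subgroup.card_le_card_group H
  have h2 : Nat.card H ≠ Nat.card K := fun h3 => h ((Subgroup.card_eq_iff_eq_top H).1 h3)
  omega

/-- if the powers `x ^ (p ^ k)` of all elements of the derived subgroup are trivial, then
`p ^ k`-th powers are multiplicative on the nose -/
theorem regular_mul_pow {K : Type*} [Group K] {p : ℕ} (hreg : Cfsg.IsRegularPGroup p K) (k : ℕ)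
    (a b : K)
    (h : ∀ x ∈ ⁅Subgroup.closure ({a, b} : Set K), Subgroup.closure ({a, b} : Set K)⁆,
      x ^ p ^ k = 1) :
    (a * b) ^ p ^ k = a ^ p ^ k * b ^ p ^ k := by
  obtain ⟨c, hc, hceq⟩ := hreg.2 a b k
  have hc1 : c = 1 := by
    have hle : Cfsg.powerClosure p k
        ⁅Subgroup.closure ({a, b} : Set K), Subgroup.closure ({a, b} : Set K)⁆ ≤ ⊥ := by
      unfold Cfsg.powerClosure
      rw [Subgroup.closure_le]
      rintro y ⟨x, hx, rfl⟩
      rw [h x hx]
      exact Subgroup.one_mem _
    exact (Subgroup.mem_bot).1 (hle hc)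
  rw [hceq, hc1, mul_one]

/-- a group generated by two elements commuting modulo a normal subgroup `E` has its
commutators in `E` -/
theorem commutator_mem_of_gen {K : Type*} [Group K] (E : Subgroup K) [E.Normal] (a b : K)
    (H : Subgroup K) (hH : H = Subgroup.closure ({a, b} : Set K))
    (hab : a⁻¹ * b⁻¹ * a * b ∈ E) : ∀ x ∈ H, ∀ y ∈ H, ⁅x, y⁆ ∈ E := by
  let π := QuotientGroup.mk' E
  have hab' : Commute (π a) (π b) := by
    have h1 : π (b * a) = π (a * b) := by
      apply (QuotientGroup.eq).2
      have : (b * a)⁻¹ * (a * b) = a⁻¹ * b⁻¹ * a * b := by group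
      rw [this]
      exact hab
    show π a * π b = π b * π a
    rw [← map_mul, ← map_mul, h1]
  have h1 : ∀ x ∈ H, Commute (π x) (π a) := by
    intro x hx
    rw [hH] at hx
    induction hx using Subgroup.closure_induction with
    | mem y hy =>
      rcases hy with rfl | rfl
      · exact Commute.refl _
      · exact hab'.symm
    | one => rw [map_one]; exact Commute.one_left _
    | mul y z _ _ hy hz => rw [map_mul]; exact hy.mul_left hz
    | inv y _ hy => rw [map_inv]; exact hy.inv_left
  have h2 : ∀ x ∈ H, Commute (π x) (π b) := by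
    intro x hx
    rw [hH] at hx
    induction hx using Subgroup.closure_induction with
    | mem y hy =>
      rcases hy with rfl | rfl
      · exact hab'
      · exact Commute.refl _
    | one => rw [map_one]; exact Commute.one_left _
    | mul y z _ _ hy hz => rw [map_mul]; exact hy.mul_left hz
    | inv y _ hy => rw [map_inv]; exact hy.inv_left
  intro x hx y hy
  have h3 : Commute (π x) (π y) := by
    rw [hH] at hy
    induction hy using Subgroup.closure_induction with
    | mem z hz =>
      rcases hz with rfl | rfl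
      · exact h1 x hx
      · exact h2 x hx
    | one => rw [map_one]; exact Commute.one_right _
    | mul z w _ _ hz hw => rw [map_mul]; exact hz.mul_right hw
    | inv z _ hz => rw [map_inv]; exact hz.inv_right
  have h4 : π ⁅x, y⁆ = 1 := by
    rw [map_commutatorElement]
    exact commutatorElement_eq_one_iff_commute.2 h3
  exact (QuotientGroup.eq_one_iff _).1 h4

theorem regular_pow_eq_aux (p : ℕ) [Fact p.Prime] (k : ℕ) :
    ∀ (n : ℕ) (K : Type u) [Group K] [Finite K], Nat.card K ≤ n → Cfsg.IsRegularPGroup p K →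
      ∀ a b : K, a ^ p ^ k = b ^ p ^ k → (a⁻¹ * b) ^ p ^ k = 1 := by
  intro n
  induction n with
  | zero =>
    intro K _ _ hcard
    exfalso
    have := Nat.card_pos (α := K)
    omega
  | succ n ih =>
    intro K _ _ hcard hreg a b hab
    by_cases hH : Subgroup.closure ({a, b} : Set K) = ⊤
    · by_cases hcomm : a * b = b * a
      · have hc : Commute a⁻¹ b := Commute.inv_left hcomm
        rw [hc.mul_pow, inv_pow, hab, inv_mul_cancel]
      · have hpK : IsPGroup p K := hreg.1
        have hnil : Group.IsNilpotent K := hpK.isNilpotent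
        have hnt : Nontrivial K := ⟨⟨a * b, b * a, hcomm⟩⟩
        have hza : Subgroup.zpowers a ≠ ⊤ := by
          intro htop
          apply hcomm
          have hb : b ∈ Subgroup.zpowers a := htop ▸ Subgroup.mem_top b
          obtain ⟨i, rfl⟩ := Subgroup.mem_zpowers_iff.1 hb
          exact (Commute.self_zpow a i).eq
        obtain ⟨M, hM, haM⟩ := (eq_top_or_exists_le_coatom (Subgroup.zpowers a)).resolve_left hza
        have hMn : M.Normal :=
          Subgroup.NormalizerCondition.normal_of_coatom M
            Group.normalizerCondition_of_isNilpotent hM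
        have haM' : a ∈ M := haM (Subgroup.mem_zpowers a)
        have hbM : b⁻¹ * a * b ∈ M := by
          have := hMn.conj_mem a haM' b⁻¹
          simpa using this
        have hMcard : Nat.card M ≤ n := by
          have := card_lt_of_ne_top M hM.1
          omega
        have hc := ih M hMcard (regular_subgroup hreg M) ⟨a, haM'⟩ ⟨b⁻¹ * a * b, hbM⟩ (by
          apply Subtype.ext
          have h1 : (b⁻¹ * a * b) ^ p ^ k = b⁻¹ * a ^ p ^ k * b := by
            have := conj_pow (i := p ^ k) (a := b⁻¹) (b := a)
            simpa using this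
          show a ^ p ^ k = (b⁻¹ * a * b) ^ p ^ k
          rw [h1, hab]
          group)
        have hc' : (a⁻¹ * (b⁻¹ * a * b)) ^ p ^ k = 1 := by
          have := congrArg Subtype.val hc
          simpa using this
        have hDlt : commutator K < ⊤ := Group.IsSolvable.commutator_lt_top_of_nontrivial K
        have hDcard : Nat.card (commutator K) ≤ n := by
          have := card_lt_of_ne_top (commutator K) hDlt.ne
          omega
        let E : Subgroup K :=
          { carrier := {x | x ∈ commutator K ∧ x ^ p ^ k = 1}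
            mul_mem' := by
              rintro x y ⟨hx, hxq⟩ ⟨hy, hyq⟩
              refine ⟨mul_mem hx hy, ?_⟩
              have h1 := ih (commutator K) hDcard (regular_subgroup hreg _)
                ⟨x⁻¹, inv_mem hx⟩ ⟨y, hy⟩ (by
                  apply Subtype.ext
                  show x⁻¹ ^ p ^ k = y ^ p ^ k
                  rw [inv_pow, hxq, hyq, inv_one])
              have h2 := congrArg Subtype.val h1
              simpa using h2
            one_mem' := ⟨one_mem _, one_pow _⟩
            inv_mem' := by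
              rintro x ⟨hx, hxq⟩
              exact ⟨inv_mem hx, by rw [inv_pow, hxq, inv_one]⟩ }
        have hEn : E.Normal := ⟨by
          rintro x ⟨hx, hxq⟩ g
          refine ⟨(inferInstance : (commutator K).Normal).conj_mem x hx g, ?_⟩
          rw [conj_pow, hxq, mul_one, mul_inv_cancel]⟩
        have hcE : a⁻¹ * b⁻¹ * a * b ∈ E := by
          refine ⟨?_, ?_⟩
          · have h1 : a⁻¹ * b⁻¹ * a * b = ⁅a⁻¹, b⁻¹⁆ := by
              rw [commutatorElement_def]
              group
            rw [h1]
            exact Subgroup.commutator_mem_commutator (Subgroup.mem_top _) (Subgroup.mem_top _)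
          · have h1 : a⁻¹ * b⁻¹ * a * b = a⁻¹ * (b⁻¹ * a * b) := by group
            rw [h1]
            exact hc'
        have hDE : ∀ x ∈ commutator K, x ^ p ^ k = 1 := by
          have hle : commutator K ≤ E := by
            show ⁅(⊤ : Subgroup K), ⊤⁆ ≤ E
            rw [Subgroup.commutator_le]
            intro g₁ _ g₂ _
            exact commutator_mem_of_gen E a b ⊤ hH.symm hcE g₁ (Subgroup.mem_top _) g₂
              (Subgroup.mem_top _)
          intro x hx
          exact (hle hx).2
        have h5 := regular_mul_pow hreg k a⁻¹ b (by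
          intro x hx
          apply hDE
          exact Subgroup.commutator_mono le_top le_top hx)
        rw [h5, inv_pow, hab, inv_mul_cancel]
    · have hHcard : Nat.card (Subgroup.closure ({a, b} : Set K)) ≤ n := by
        have := card_lt_of_ne_top _ hH
        omega
      have h1 := ih (Subgroup.closure ({a, b} : Set K)) hHcard (regular_subgroup hreg _)
        ⟨a, Subgroup.subset_closure (by simp)⟩ ⟨b, Subgroup.subset_closure (by simp)⟩
        (Subtype.ext (by simpa using hab))
      have h2 := congrArg Subtype.val h1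
      simpa using h2

/-- in a regular `p`-group, `a ^ (p ^ k) = b ^ (p ^ k)` implies `(a⁻¹ b) ^ (p ^ k) = 1` -/
theorem regular_pow_eq {K : Type u} [Group K] [Finite K] {p : ℕ} [Fact p.Prime]
    (hreg : Cfsg.IsRegularPGroup p K) (k : ℕ) (a b : K) (hab : a ^ p ^ k = b ^ p ^ k) :
    (a⁻¹ * b) ^ p ^ k = 1 :=
  regular_pow_eq_aux p k (Nat.card K) K le_rfl hreg a b hab

/-- the subgroup `Ω_k` of a regular `p`-group: the elements killed by `p ^ k` -/
def regularOmega {K : Type u} [Group K] [Finite K] {p : ℕ} [Fact p.Prime]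
    (hreg : Cfsg.IsRegularPGroup p K) (k : ℕ) : Subgroup K where
  carrier := {x | x ^ p ^ k = 1}
  mul_mem' := by
    intro x y hx hy
    have hx' : x ^ p ^ k = 1 := hx
    have hy' : y ^ p ^ k = 1 := hy
    have h1 := regular_pow_eq hreg k x⁻¹ y (by rw [inv_pow, hx', hy', inv_one])
    simpa using h1
  one_mem' := one_pow _
  inv_mem' := by
    intro x hx
    have hx' : x ^ p ^ k = 1 := hx
    show x⁻¹ ^ p ^ k = 1
    rw [inv_pow, hx', inv_one]

theorem mem_regularOmega {K : Type u} [Group K] [Finite K] {p : ℕ} [Fact p.Prime]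
    (hreg : Cfsg.IsRegularPGroup p K) (k : ℕ) (x : K) :
    x ∈ regularOmega hreg k ↔ x ^ p ^ k = 1 := Iff.rfl

instance regularOmega_normal {K : Type u} [Group K] [Finite K] {p : ℕ} [Fact p.Prime]
    (hreg : Cfsg.IsRegularPGroup p K) (k : ℕ) : (regularOmega hreg k).Normal := ⟨by
  intro x hx g
  rw [mem_regularOmega] at hx ⊢
  rw [conj_pow, hx, mul_one, mul_inv_cancel]⟩

/-- converse: in a regular `p`-group, `(a⁻¹ b) ^ (p ^ k) = 1` implies
`a ^ (p ^ k) = b ^ (p ^ k)` -/
theorem regular_pow_eq_conv {K : Type u} [Group K] [Finite K] {p : ℕ} [Fact p.Prime]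
    (hreg : Cfsg.IsRegularPGroup p K) (k : ℕ) (a b : K) (hab : (a⁻¹ * b) ^ p ^ k = 1) :
    a ^ p ^ k = b ^ p ^ k := by
  set u := a⁻¹ * b with hu
  have hb : b = a * u := by rw [hu]; group
  have h1 : (a⁻¹ * u * a) ^ p ^ k = 1 := by
    have := conj_pow (i := p ^ k) (a := a⁻¹) (b := u)
    rw [inv_inv] at this
    rw [this, hab]
    group
  have h2 : (u⁻¹ * (a⁻¹ * u * a)) ^ p ^ k = 1 :=
    regular_pow_eq hreg k u (a⁻¹ * u * a) (by rw [hab, h1])
  have h3 : a⁻¹ * u⁻¹ * a * u ∈ regularOmega hreg k := by
    rw [mem_regularOmega]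
    have h4 : a⁻¹ * u⁻¹ * a * u = (u⁻¹ * (a⁻¹ * u * a))⁻¹ := by group
    rw [h4, inv_pow, h2, inv_one]
  have h5 : ∀ x ∈ ⁅Subgroup.closure ({a, u} : Set K), Subgroup.closure ({a, u} : Set K)⁆,
      x ^ p ^ k = 1 := by
    intro x hx
    have hle : ⁅Subgroup.closure ({a, u} : Set K), Subgroup.closure ({a, u} : Set K)⁆
        ≤ regularOmega hreg k := by
      rw [Subgroup.commutator_le]
      intro g₁ hg₁ g₂ hg₂
      exact commutator_mem_of_gen (regularOmega hreg k) a u _ rfl h3 g₁ hg₁ g₂ hg₂
    exact hle hx
  rw [hb, regular_mul_pow hreg k a u h5, hab, mul_one]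

end Cfsg.Agent.Helper23
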