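import Mathlib

set_option autoImplicit false

namespace Cfsg.Agent.Helper23

open Finset
open scoped Classical

/-- if all "left differences" of elements of `S` lie in `K` then `#S ≤ #K`. -/
theorem card_le_of_diff {G : Type*} [Group G] (S K : Finset G)
    (h : ∀ x ∈ S, ∀ y ∈ S, x⁻¹ * y ∈ K) : S.card ≤ K.card := by
  rcases S.eq_empty_or_nonempty with rfl | ⟨x₀, hx₀⟩
  · simp
  · apply Finset.card_le_card_of_injOn (fun y => x₀⁻¹ * y)
    · intro y hy; exact h x₀ hx₀ y hy
    · intro y _ z _ hyz; exact mul_left_cancel hyz

theorem card_filter_product {α β : Type*} (A : Finset α) (B : Finset β) (r : α → β → Prop) :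
    ((A ×ˢ B).filter (fun p => r p.1 p.2)).card = ∑ a ∈ A, (B.filter (r a)).card := by
  rw [Finset.card_filter, Finset.sum_product]
  apply Finset.sum_congr rfl
  intro a _
  rw [Finset.card_filter]

theorem card_filter_product' {α β : Type*} (A : Finset α) (B : Finset β) (r : α → β → Prop) :
    ((A ×ˢ B).filter (fun p => r p.1 p.2)).card = ∑ b ∈ B, (A.filter (fun a => r a b)).card := by
  rw [Finset.card_filter, Finset.sum_product_right]
  apply Finset.sum_congr rfl
  intro b _
  rw [Finset.card_filter]

/-- the commuting pairs inside a finset `A` of a group -/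
noncomputable def commPairs {X : Type*} [Mul X] (A : Finset X) : Finset (X × X) :=
  (A ×ˢ A).filter (fun p => p.1 * p.2 = p.2 * p.1)

/-- the elements of a subgroup as a finset -/
noncomputable def elems {X : Type*} [Group X] [Fintype X] (Y : Subgroup X) : Finset X :=
  univ.filter (· ∈ Y)

theorem mem_elems {X : Type*} [Group X] [Fintype X] (Y : Subgroup X) (x : X) :
    x ∈ elems Y ↔ x ∈ Y := by simp [elems]

theorem card_commPairs_univ (X : Type*) [Group X] [Fintype X] :
    (commPairs (univ : Finset X)).card = Nat.card (ConjClasses X) * Nat.card X := by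
  rw [← card_comm_eq_card_conjClasses_mul_card, Nat.card_eq_fintype_card, Fintype.card_subtype,
    commPairs, Finset.univ_product_univ]
  rfl

theorem card_commPairs_elems {X : Type*} [Group X] [Fintype X] (Y : Subgroup X) :
    (commPairs (elems Y)).card = Nat.card (ConjClasses Y) * Nat.card Y := by
  have : Fintype Y := Fintype.ofFinite Y
  rw [← card_commPairs_univ Y]
  symm
  apply Finset.card_bij (fun (p : Y × Y) _ => ((p.1 : X), (p.2 : X)))
  · intro p hp
    simp only [commPairs, mem_filter, mem_product, mem_univ, true_and] at hp
    simp only [commPairs, mem_filter, mem_product, mem_elems]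
    refine ⟨⟨p.1.2, p.2.2⟩, ?_⟩
    have := congrArg Subtype.val hp
    simpa using this
  · intro p _ q _ h
    simp only [Prod.mk.injEq] at h
    exact Prod.ext (Subtype.ext h.1) (Subtype.ext h.2)
  · intro p hp
    simp only [commPairs, mem_filter, mem_product, mem_elems] at hp
    refine ⟨(⟨p.1, hp.1.1⟩, ⟨p.2, hp.1.2⟩), ?_, rfl⟩
    simp only [commPairs, mem_filter, mem_product, mem_univ, true_and]
    exact Subtype.ext hp.2

/-- commuting pairs of `X` versus those of `N` and `X ⧸ N` -/
theorem commPairs_quotient_le {X : Type*} [Group X] [Fintype X] (N : Subgroup X) [N.Normal] :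
    (commPairs (univ : Finset X)).card ≤
      (commPairs (elems N)).card * (commPairs (univ : Finset (X ⧸ N))).card := by
  apply card_le_mul_card_image_of_maps_to
    (f := fun p : X × X => ((p.1 : X ⧸ N), (p.2 : X ⧸ N)))
  · intro p hp
    simp only [commPairs, mem_filter, mem_product, mem_univ, true_and] at hp ⊢
    rw [← QuotientGroup.mk_mul, ← QuotientGroup.mk_mul, hp]
  · rintro ⟨q, q'⟩ _
    set A := (univ : Finset X).filter (fun a : X => (a : X ⧸ N) = q) with hA
    set A' := (univ : Finset X).filter (fun a : X => (a : X ⧸ N) = q') with hA'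
    have e : (commPairs (univ : Finset X)).filter
        (fun p : X × X => ((p.1 : X ⧸ N), (p.2 : X ⧸ N)) = (q, q')) =
        (A ×ˢ A').filter (fun p => p.1 * p.2 = p.2 * p.1) := by
      ext ⟨a, b⟩
      simp only [commPairs, mem_filter, mem_product, mem_univ, true_and, Prod.mk.injEq, hA, hA']
      tauto
    rw [e, card_filter_product A A' (fun a b => a * b = b * a)]
    calc ∑ a ∈ A, (A'.filter (fun b => a * b = b * a)).card
        ≤ ∑ a ∈ A, ((elems N).filter (fun b => a * b = b * a)).card := by
          apply Finset.sum_le_sum
          intro a _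
          apply card_le_of_diff
          intro b hb b' hb'
          simp only [hA', mem_filter, mem_univ, true_and] at hb hb'
          simp only [mem_filter, mem_elems]
          refine ⟨?_, ?_⟩
          · rw [← QuotientGroup.eq, hb.1, hb'.1]
          · have h1 : Commute a b := hb.2
            have h2 : Commute a b' := hb'.2
            exact (h1.inv_right.mul_right h2).eq
      _ = ((A ×ˢ elems N).filter (fun p => p.1 * p.2 = p.2 * p.1)).card :=
          (card_filter_product A (elems N) (fun a b => a * b = b * a)).symm
      _ = ∑ x ∈ elems N, (A.filter (fun a => a * x = x * a)).card :=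
          card_filter_product' A (elems N) (fun a b => a * b = b * a)
      _ ≤ ∑ x ∈ elems N, ((elems N).filter (fun a => a * x = x * a)).card := by
          apply Finset.sum_le_sum
          intro x _
          apply card_le_of_diff
          intro a ha a' ha'
          simp only [hA, mem_filter, mem_univ, true_and] at ha ha'
          simp only [mem_filter, mem_elems]
          refine ⟨?_, ?_⟩
          · rw [← QuotientGroup.eq, ha.1, ha'.1]
          · have h1 : Commute a x := ha.2
            have h2 : Commute a' x := ha'.2
            exact (h1.inv_left.mul_left h2).eq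
      _ = (commPairs (elems N)).card :=
          (card_filter_product' (elems N) (elems N) (fun a b => a * b = b * a)).symm

/-- Gallagher: `k(X) ≤ k(N) k(X/N)`. -/
theorem conjClasses_le_quotient {X : Type*} [Group X] [Finite X] (N : Subgroup X) [N.Normal] :
    Nat.card (ConjClasses X) ≤ Nat.card (ConjClasses N) * Nat.card (ConjClasses (X ⧸ N)) := by
  have : Fintype X := Fintype.ofFinite X
  have h := commPairs_quotient_le N
  rw [card_commPairs_univ, card_commPairs_elems, card_commPairs_univ] at h
  have hX : Nat.card X = Nat.card N * Nat.card (X ⧸ N) := by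
    rw [← Subgroup.index_eq_card, Subgroup.card_mul_index]
  have hpos : 0 < Nat.card X := Nat.card_pos
  apply Nat.le_of_mul_le_mul_right _ hpos
  calc Nat.card (ConjClasses X) * Nat.card X
      ≤ Nat.card (ConjClasses N) * Nat.card N * (Nat.card (ConjClasses (X ⧸ N)) * Nat.card (X ⧸ N)) := h
    _ = Nat.card (ConjClasses N) * Nat.card (ConjClasses (X ⧸ N)) * Nat.card X := by rw [hX]; ring

/-- `|C_X(y)| ≤ [X:Y] |C_Y(y)|` -/
theorem card_centralizer_le {X : Type*} [Group X] [Fintype X] (Y : Subgroup X) (y : X) :
    ((univ : Finset X).filter (fun a => a * y = y * a)).card ≤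
      Y.index * ((elems Y).filter (fun a => a * y = y * a)).card := by
  have h := card_le_mul_card_image_of_maps_to
    (f := fun a : X => (a : X ⧸ Y)) (s := (univ : Finset X).filter (fun a => a * y = y * a))
    (t := (univ : Finset (X ⧸ Y))) (fun a _ => mem_univ _)
    (((elems Y).filter (fun a => a * y = y * a)).card) (by
      intro q _
      apply card_le_of_diff
      intro a ha a' ha'
      simp only [mem_filter, mem_univ, true_and] at ha ha'
      simp only [mem_filter, mem_elems]
      refine ⟨?_, ?_⟩
      · rw [← QuotientGroup.eq, ha.2, ha'.2]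
      · have h1 : Commute a y := ha.1
        have h2 : Commute a' y := ha'.1
        exact (h1.inv_left.mul_left h2).eq)
  rw [Finset.card_univ, ← Nat.card_eq_fintype_card, ← Subgroup.index_eq_card, mul_comm] at h
  exact h

/-- strict version when some conjugate of `y` leaves `Y` -/
theorem card_centralizer_lt {X : Type*} [Group X] [Fintype X] (Y : Subgroup X) (y : X) (hy : y ∈ Y)
    (g : X) (hg : g * y * g⁻¹ ∉ Y) :
    ((univ : Finset X).filter (fun a => a * y = y * a)).card <
      Y.index * ((elems Y).filter (fun a => a * y = y * a)).card := by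
  have h := card_le_mul_card_image_of_maps_to
    (f := fun a : X => (a : X ⧸ Y)) (s := (univ : Finset X).filter (fun a => a * y = y * a))
    (t := (univ : Finset (X ⧸ Y)).erase ((g⁻¹ : X) : X ⧸ Y)) (by
      intro a ha
      simp only [mem_filter, mem_univ, true_and] at ha
      simp only [mem_erase, mem_univ, and_true]
      intro heq
      rw [QuotientGroup.eq] at heq
      apply hg
      have e : g * y * g⁻¹ = (a⁻¹ * g⁻¹)⁻¹ * (a⁻¹ * (y * a)) * (a⁻¹ * g⁻¹) := by group
      rw [e, ← ha, inv_mul_cancel_left]
      exact Y.mul_mem (Y.mul_mem (Y.inv_mem heq) hy) heq)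
    (((elems Y).filter (fun a => a * y = y * a)).card) (by
      intro q _
      apply card_le_of_diff
      intro a ha a' ha'
      simp only [mem_filter, mem_univ, true_and] at ha ha'
      simp only [mem_filter, mem_elems]
      refine ⟨?_, ?_⟩
      · rw [← QuotientGroup.eq, ha.2, ha'.2]
      · have h1 : Commute a y := ha.1
        have h2 : Commute a' y := ha'.1
        exact (h1.inv_left.mul_left h2).eq)
  rw [Finset.card_erase_of_mem (mem_univ _), Finset.card_univ, ← Nat.card_eq_fintype_card,
    ← Subgroup.index_eq_card] at h
  have hn : 0 < ((elems Y).filter (fun a => a * y = y * a)).card := by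
    apply Finset.card_pos.mpr
    exact ⟨1, by simp [mem_elems, Y.one_mem]⟩
  have hi : 0 < Y.index := Nat.pos_of_ne_zero Subgroup.index_ne_zero_of_finite
  calc ((univ : Finset X).filter (fun a => a * y = y * a)).card
      ≤ ((elems Y).filter (fun a => a * y = y * a)).card * (Y.index - 1) := h
    _ < Y.index * ((elems Y).filter (fun a => a * y = y * a)).card := by
        rw [mul_comm]
        exact Nat.mul_lt_mul_of_pos_right (by omega) hn

theorem commPairs_index_aux {X : Type*} [Group X] [Fintype X] (Y : Subgroup X) :
    (commPairs (univ : Finset X)).card ≤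
      Y.index * ∑ y ∈ elems Y, ((univ : Finset X).filter (fun a => a * y = y * a)).card := by
  rw [commPairs, card_filter_product (univ : Finset X) univ (fun a b => a * b = b * a)]
  calc ∑ a : X, ((univ : Finset X).filter (fun b => a * b = b * a)).card
      ≤ ∑ a : X, Y.index * ((elems Y).filter (fun b => a * b = b * a)).card := by
        apply Finset.sum_le_sum
        intro a _
        have h := card_centralizer_le Y a
        have e1 : (univ : Finset X).filter (fun b => a * b = b * a) =
            (univ : Finset X).filter (fun b => b * a = a * b) :=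
          Finset.filter_congr (fun b _ => eq_comm)
        have e2 : (elems Y).filter (fun b => a * b = b * a) =
            (elems Y).filter (fun b => b * a = a * b) :=
          Finset.filter_congr (fun b _ => eq_comm)
        rw [e1, e2]; exact h
    _ = Y.index * ∑ a : X, ((elems Y).filter (fun b => a * b = b * a)).card := by
        rw [Finset.mul_sum]
    _ = Y.index * (((univ : Finset X) ×ˢ elems Y).filter (fun p => p.1 * p.2 = p.2 * p.1)).card := by
        rw [card_filter_product (univ : Finset X) (elems Y) (fun a b => a * b = b * a)]
    _ = Y.index * ∑ y ∈ elems Y, ((univ : Finset X).filter (fun a => a * y = y * a)).card := by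
        rw [card_filter_product' (univ : Finset X) (elems Y) (fun a b => a * b = b * a)]

theorem commPairs_index_le {X : Type*} [Group X] [Fintype X] (Y : Subgroup X) :
    (commPairs (univ : Finset X)).card ≤ Y.index * (Y.index * (commPairs (elems Y)).card) := by
  refine le_trans (commPairs_index_aux Y) (Nat.mul_le_mul_left _ ?_)
  rw [commPairs, card_filter_product' (elems Y) (elems Y) (fun a b => a * b = b * a), Finset.mul_sum]
  apply Finset.sum_le_sum
  intro y _
  exact card_centralizer_le Y y

theorem commPairs_index_lt {X : Type*} [Group X] [Fintype X] (Y : Subgroup X) (hY : ¬ Y.Normal) :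
    (commPairs (univ : Finset X)).card < Y.index * (Y.index * (commPairs (elems Y)).card) := by
  have hi : 0 < Y.index := Nat.pos_of_ne_zero Subgroup.index_ne_zero_of_finite
  refine lt_of_le_of_lt (commPairs_index_aux Y) (Nat.mul_lt_mul_of_pos_left ?_ hi)
  rw [commPairs, card_filter_product' (elems Y) (elems Y) (fun a b => a * b = b * a), Finset.mul_sum]
  apply Finset.sum_lt_sum
  · intro y _
    exact card_centralizer_le Y y
  · -- some conjugate of an element of Y leaves Y
    have : ∃ y ∈ Y, ∃ g : X, g * y * g⁻¹ ∉ Y := by
      by_contra hcon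
      push Not at hcon
      exact hY ⟨fun y hy g => hcon y hy g⟩
    obtain ⟨y, hy, g, hg⟩ := this
    exact ⟨y, (mem_elems Y y).mpr hy, card_centralizer_lt Y y hy g hg⟩

/-- `k(Y) ≤ [X:Y] k(X)`, `k(X) ≤ [X:Y] k(Y)`, strict unless `Y` is normal. -/
theorem conjClasses_index {X : Type*} [Group X] [Finite X] (Y : Subgroup X) :
    Nat.card (ConjClasses Y) ≤ Y.index * Nat.card (ConjClasses X) ∧
    Nat.card (ConjClasses X) ≤ Y.index * Nat.card (ConjClasses Y) ∧
    (¬ Y.Normal → Nat.card (ConjClasses X) < Y.index * Nat.card (ConjClasses Y)) := by
  have : Fintype X := Fintype.ofFinite X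
  have hX : Nat.card X = Nat.card Y * Y.index := (Subgroup.card_mul_index Y).symm
  have hposX : 0 < Nat.card X := Nat.card_pos
  have hposY : 0 < Nat.card Y := Nat.card_pos
  refine ⟨?_, ?_, ?_⟩
  · have h : (commPairs (elems Y)).card ≤ (commPairs (univ : Finset X)).card := by
      apply Finset.card_le_card
      intro p hp
      simp only [commPairs, mem_filter, mem_product, mem_univ, true_and] at hp ⊢
      exact hp.2
    rw [card_commPairs_univ, card_commPairs_elems] at h
    apply Nat.le_of_mul_le_mul_right _ hposY
    calc Nat.card (ConjClasses Y) * Nat.card Y ≤ Nat.card (ConjClasses X) * Nat.card X := h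
      _ = Y.index * Nat.card (ConjClasses X) * Nat.card Y := by rw [hX]; ring
  · have h := commPairs_index_le Y
    rw [card_commPairs_univ, card_commPairs_elems] at h
    apply Nat.le_of_mul_le_mul_right _ hposX
    calc Nat.card (ConjClasses X) * Nat.card X
        ≤ Y.index * (Y.index * (Nat.card (ConjClasses Y) * Nat.card Y)) := h
      _ = Y.index * Nat.card (ConjClasses Y) * Nat.card X := by rw [hX]; ring
  · intro hY
    have h := commPairs_index_lt Y hY
    rw [card_commPairs_univ, card_commPairs_elems] at h
    apply Nat.lt_of_mul_lt_mul_right (a := Nat.card X)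
    calc Nat.card (ConjClasses X) * Nat.card X
        < Y.index * (Y.index * (Nat.card (ConjClasses Y) * Nat.card Y)) := h
      _ = Y.index * Nat.card (ConjClasses Y) * Nat.card X := by rw [hX]; ring

end Cfsg.Agent.Helper23
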