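import Mathlib
import Cfsg.Agent.S1018
import Cfsg.Agent.Helper13.Syl

/-!
# Self-centralizing subgroups of prime order: group-theoretic part

`P` is a subgroup of prime order `p` of a finite group `G` such that every nontrivial element
of `P` has centralizer `P`.
-/

set_option autoImplicit false

namespace Cfsg.Agent.Helper23.DegPm1A

open Cfsg
open scoped Pointwise

variable {G : Type*} [Group G]

lemma mem_cent_single {g u : G} :
    g ∈ Subgroup.centralizer ({u} : Set G) ↔ u * g = g * u := by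
  simp [Subgroup.mem_centralizer_iff]

/-- The hypotheses of the statement give the working hypotheses. -/
lemma setup [Finite G] (p : ℕ) (hp : p.Prime) (x : G) (hx : orderOf x = p)
    (hC : Subgroup.centralizer ({x} : Set G) = Subgroup.zpowers x) :
    Nat.card (Subgroup.zpowers x) = p ∧ x ≠ 1 ∧
      ∀ u ∈ Subgroup.zpowers x, u ≠ 1 →
        Subgroup.centralizer ({u} : Set G) = Subgroup.zpowers x := by
  have hcard : Nat.card (Subgroup.zpowers x) = p := by rw [Nat.card_zpowers, hx]
  have hx1 : x ≠ 1 := by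
    rintro rfl
    rw [orderOf_one] at hx
    exact hp.one_lt.ne hx
  refine ⟨hcard, hx1, ?_⟩
  intro u hu hu1
  have hz : Subgroup.zpowers u = Subgroup.zpowers x := S1018.zpowers_eq_of_card hp hcard hu hu1
  ext g
  constructor
  · intro hg
    rw [← hC, mem_cent_single]
    have hxu : x ∈ Subgroup.zpowers u := by rw [hz]; exact Subgroup.mem_zpowers x
    obtain ⟨k, rfl⟩ := Subgroup.mem_zpowers_iff.mp hxu
    have hcomm : Commute u g := mem_cent_single.mp hg
    exact (hcomm.zpow_left k).eq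
  · intro hg
    rw [← hz] at hg
    obtain ⟨k, rfl⟩ := Subgroup.mem_zpowers_iff.mp hg
    rw [mem_cent_single]
    exact ((Commute.refl u).zpow_right k).eq

variable [Finite G]

/-- `P` is a Sylow subgroup. -/
lemma exists_sylow (p : ℕ) [Fact p.Prime] (P : Subgroup G) (hP : Nat.card P = p)
    (hcent : ∀ u ∈ P, u ≠ 1 → Subgroup.centralizer ({u} : Set G) = P)
    (u₀ : G) (hu₀ : u₀ ∈ P) (hu₀1 : u₀ ≠ 1) :
    ∃ S : Sylow p G, (S : Subgroup G) = P := by
  have hpg : IsPGroup p P := IsPGroup.of_card (n := 1) (by rw [hP, pow_one])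
  obtain ⟨Q, hQ⟩ := hpg.exists_le_sylow
  refine ⟨Q, le_antisymm ?_ hQ⟩
  have hnt : Nontrivial (Q : Subgroup G) :=
    ⟨⟨⟨u₀, hQ hu₀⟩, 1, fun h => hu₀1 (congrArg Subtype.val h)⟩⟩
  have hcnt := Q.2.center_nontrivial
  obtain ⟨z, hz1⟩ := exists_ne (1 : Subgroup.center (Q : Subgroup G))
  have hzc : ∀ q : (Q : Subgroup G), q * (z : (Q : Subgroup G)) = (z : (Q : Subgroup G)) * q :=
    fun q => (Subgroup.mem_center_iff.mp z.2 q)
  have hzG1 : (((z : (Q : Subgroup G)) : G)) ≠ 1 := by
    intro h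
    apply hz1
    apply Subtype.ext
    apply Subtype.ext
    exact h
  have hzP : (((z : (Q : Subgroup G)) : G)) ∈ P := by
    rw [← hcent u₀ hu₀ hu₀1, mem_cent_single]
    have := hzc ⟨u₀, hQ hu₀⟩
    exact congrArg Subtype.val this
  intro q hq
  rw [← hcent _ hzP hzG1, mem_cent_single]
  have := hzc ⟨q, hq⟩
  exact (congrArg Subtype.val this).symm

/-- Every element of order `p` is conjugate into `P`. -/
lemma exists_conj_mem (p : ℕ) (hp : p.Prime) (P : Subgroup G) (hP : Nat.card P = p)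
    (hcent : ∀ u ∈ P, u ≠ 1 → Subgroup.centralizer ({u} : Set G) = P)
    (u₀ : G) (hu₀ : u₀ ∈ P) (hu₀1 : u₀ ≠ 1) (g : G) (hg : orderOf g = p) :
    ∃ z : G, z * g * z⁻¹ ∈ P ∧ z * g * z⁻¹ ≠ 1 := by
  haveI : Fact p.Prime := ⟨hp⟩
  obtain ⟨S, hS⟩ := exists_sylow p P hP hcent u₀ hu₀ hu₀1
  have hpg : IsPGroup p (Subgroup.zpowers g) :=
    Helper13.isPGroup_zpowers_of_pow_eq_one g 1 (by rw [pow_one, ← hg]; exact pow_orderOf_eq_one g)
  obtain ⟨z, hz⟩ := Helper13.exists_conj_le_sylow S (Subgroup.zpowers g) hpg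
  refine ⟨z, ?_, ?_⟩
  · rw [← hS]; exact hz g (Subgroup.mem_zpowers g)
  · intro h
    have hg1 : g = 1 := by
      have : g = z⁻¹ * (z * g * z⁻¹) * z := by group
      rw [this, h]; group
    rw [hg1, orderOf_one] at hg
    exact hp.one_lt.ne hg

/-- Nontrivial elements of `P` have order `p`. -/
lemma orderOf_of_mem (p : ℕ) (hp : p.Prime) (P : Subgroup G) (hP : Nat.card P = p)
    (u : G) (hu : u ∈ P) (hu1 : u ≠ 1) : orderOf u = p := by
  have h1 : orderOf u ∣ p := hP ▸ Subgroup.orderOf_dvd_natCard P hu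
  rcases (Nat.dvd_prime hp).mp h1 with h | h
  · exact absurd (orderOf_eq_one_iff.mp h) hu1
  · exact h

/-- The centralizer of an element of order `p` has order `p`. -/
lemma card_centralizer (p : ℕ) (hp : p.Prime) (P : Subgroup G) (hP : Nat.card P = p)
    (hcent : ∀ u ∈ P, u ≠ 1 → Subgroup.centralizer ({u} : Set G) = P)
    (u₀ : G) (hu₀ : u₀ ∈ P) (hu₀1 : u₀ ≠ 1) (g : G) (hg : orderOf g = p) :
    Nat.card (Subgroup.centralizer ({g} : Set G)) = p := by
  obtain ⟨z, hz, hz1⟩ := exists_conj_mem p hp P hP hcent u₀ hu₀ hu₀1 g hg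
  rw [← hP, ← hcent _ hz hz1]
  apply Nat.card_congr
  apply (MulAut.conj z).toEquiv.subtypeEquiv
  intro a
  show a ∈ Subgroup.centralizer ({g} : Set G) ↔
    z * a * z⁻¹ ∈ Subgroup.centralizer ({z * g * z⁻¹} : Set G)
  rw [mem_cent_single, mem_cent_single]
  constructor
  · intro h
    have : z * g * z⁻¹ * (z * a * z⁻¹) = z * (g * a) * z⁻¹ := by group
    rw [this, h]; group
  · intro h
    have h1 : g * a = z⁻¹ * (z * g * z⁻¹ * (z * a * z⁻¹)) * z := by group
    rw [h1, h]; group

/-- Sum over a coset `P y` with `y` normalizing but outside `P`, of a class function. -/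
lemma sum_coset (P : Subgroup G) [Fintype P]
    (hcent : ∀ u ∈ P, u ≠ 1 → Subgroup.centralizer ({u} : Set G) = P)
    (y : G) (hyN : y ∈ Subgroup.normalizer (P : Set G)) (hyP : y ∉ P)
    {M : Type*} [AddCommMonoid M] (F : G → M) (hF : ∀ g h : G, F (h * g * h⁻¹) = F g) :
    ∑ u : P, F ((u : G) * y) = Fintype.card P • F y := by
  classical
  let σ : P → P := fun u => ⟨(u : G) * (y * (u : G)⁻¹ * y⁻¹),
    P.mul_mem u.2 ((Subgroup.mem_normalizer_iff.mp hyN _).mp (P.inv_mem u.2))⟩
  have hσinj : Function.Injective σ := by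
    intro u v huv
    have h1 : (u : G) * (y * (u : G)⁻¹ * y⁻¹) = (v : G) * (y * (v : G)⁻¹ * y⁻¹) :=
      congrArg Subtype.val huv
    by_contra hne
    have hw : (v : G)⁻¹ * (u : G) ∈ P := P.mul_mem (P.inv_mem v.2) u.2
    have hw1 : (v : G)⁻¹ * (u : G) ≠ 1 := by
      intro h
      apply hne
      apply Subtype.ext
      have : (u : G) = (v : G) * ((v : G)⁻¹ * (u : G)) := by group
      rw [this, h, mul_one]
    apply hyP
    rw [← hcent _ hw hw1, mem_cent_single]
    have h2 : (v : G)⁻¹ * (u : G) * y = (v : G)⁻¹ * ((u : G) * (y * (u : G)⁻¹ * y⁻¹)) * y * u := by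
      group
    rw [h2, h1]; group
  have hσbij : Function.Bijective σ := Finite.injective_iff_bijective.mp hσinj
  have h3 : ∑ u : P, F ((u : G) * y) = ∑ u : P, F ((σ u : G) * y) :=
    (Function.Bijective.sum_comp hσbij (fun u : P => F ((u : G) * y))).symm
  rw [h3]
  have h4 : ∀ u : P, F ((σ u : G) * y) = F y := by
    intro u
    have : (σ u : G) * y = (u : G) * y * (u : G)⁻¹ := by
      show (u : G) * (y * (u : G)⁻¹ * y⁻¹) * y = _
      group
    rw [this, hF]
  simp [h4]

/-- The centralizer of `P` is `P`. -/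
lemma centralizer_eq (P : Subgroup G)
    (hcent : ∀ u ∈ P, u ≠ 1 → Subgroup.centralizer ({u} : Set G) = P)
    (u₀ : G) (hu₀ : u₀ ∈ P) (hu₀1 : u₀ ≠ 1) :
    Subgroup.centralizer (P : Set G) = P := by
  apply le_antisymm
  · intro g hg
    rw [← hcent u₀ hu₀ hu₀1, mem_cent_single]
    exact Subgroup.mem_centralizer_iff.mp hg u₀ hu₀
  · intro g hg
    rw [Subgroup.mem_centralizer_iff]
    intro h hh
    by_cases h1 : h = 1
    · rw [h1]; simp
    · have : g ∈ Subgroup.centralizer ({h} : Set G) := by rw [hcent h hh h1]; exact hg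
      exact mem_cent_single.mp this

/-- An element of the normalizer of prescribed order `m` prime to `p`, when `p * m` divides the
order of the normalizer. -/
lemma exists_orderOf_eq (p : ℕ) (hp : p.Prime) (P : Subgroup G) (hP : Nat.card P = p)
    (hcent : ∀ u ∈ P, u ≠ 1 → Subgroup.centralizer ({u} : Set G) = P)
    (u₀ : G) (hu₀ : u₀ ∈ P) (hu₀1 : u₀ ≠ 1) (e m : ℕ)
    (hN : Nat.card (Subgroup.normalizer (P : Set G)) = p * e) (hm : m ∣ e) (hmp : m.Coprime p) :
    ∃ g ∈ Subgroup.normalizer (P : Set G), orderOf g = m := by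
  classical
  have hm0 : m ≠ 0 := by
    rintro rfl
    rw [Nat.coprime_zero_left] at hmp
    exact hp.one_lt.ne' hmp
  have he0 : e ≠ 0 := by
    rintro rfl
    rw [mul_zero] at hN
    exact Nat.card_pos.ne' hN
  set N := Subgroup.normalizer (P : Set G) with hNdef
  have hPN : P ≤ N := Subgroup.le_normalizer
  let c : N →* MulAut P := P.normalizerMonoidHom
  have hker : c.ker = P.subgroupOf N := by
    show P.normalizerMonoidHom.ker = _
    rw [Subgroup.normalizerMonoidHom_ker, centralizer_eq P hcent u₀ hu₀ hu₀1]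
  have hkercard : Nat.card c.ker = p := by
    rw [hker, ← hP]
    exact Nat.card_congr (Subgroup.subgroupOfEquivOfLe hPN).toEquiv
  have hrange : Nat.card c.range = e := by
    have h1 := Subgroup.card_mul_index c.ker
    rw [hkercard, Subgroup.index_ker, hN] at h1
    exact Nat.eq_of_mul_eq_mul_left hp.pos h1
  haveI : Fact (Nat.card P).Prime := ⟨hP ▸ hp⟩
  haveI : IsCyclic P := isCyclic_of_prime_card (p := Nat.card P) rfl
  haveI : IsCyclic (MulAut P) := (IsCyclic.mulAutMulEquiv P).isCyclic.mpr inferInstance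
  haveI : IsCyclic c.range := inferInstance
  obtain ⟨γ, hγ⟩ := IsCyclic.exists_generator (α := c.range)
  have hγord : orderOf γ = e := by
    rw [orderOf_eq_card_of_forall_mem_zpowers hγ, hrange]
  obtain ⟨d, hd⟩ := hm
  have hd0 : d ≠ 0 := by
    rintro rfl
    rw [mul_zero] at hd
    exact he0 hd
  have hδ : orderOf (γ ^ d) = m := by
    rw [orderOf_pow_of_dvd hd0 (by rw [hγord, hd]; exact dvd_mul_left d m), hγord, hd,
      Nat.mul_div_cancel _ (Nat.pos_of_ne_zero hd0)]
  have hδ' : orderOf ((γ ^ d : c.range) : MulAut P) = m := by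
    rw [← hδ]; exact Subgroup.orderOf_coe _
  obtain ⟨n₀, hn₀⟩ : ∃ n₀ : N, c n₀ = ((γ ^ d : c.range) : MulAut P) := (γ ^ d).2
  have hcn : orderOf (c n₀) = m := by rw [hn₀]; exact hδ'
  have h1 : n₀ ^ m ∈ c.ker := by
    rw [MonoidHom.mem_ker, map_pow, ← hcn, pow_orderOf_eq_one]
  have h2 : (n₀ ^ m) ^ p = 1 := by
    have h3 : orderOf (⟨n₀ ^ m, h1⟩ : c.ker) ∣ p := by
      rw [← hkercard]; exact orderOf_dvd_natCard _
    have h4 : (⟨n₀ ^ m, h1⟩ : c.ker) ^ p = 1 := orderOf_dvd_iff_pow_eq_one.mp h3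
    exact congrArg Subtype.val h4
  refine ⟨((n₀ ^ p : N) : G), (n₀ ^ p).2, ?_⟩
  rw [Subgroup.orderOf_coe]
  apply Nat.dvd_antisymm
  · apply orderOf_dvd_of_pow_eq_one
    rw [← pow_mul, mul_comm, pow_mul, h2]
  · have h5 : orderOf (c (n₀ ^ p)) = m := by
      rw [map_pow, Nat.Coprime.orderOf_pow (by rw [hcn]; exact hmp), hcn]
    rw [← h5]
    exact orderOf_map_dvd c (n₀ ^ p)

omit [Finite G] in
/-- A homomorphism to a commutative group taking a value of even order forces the commutator
subgroup to have even index. -/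
lemma even_index_of_hom {A : Type*} [CommGroup A] (f : G →* A) (g : G)
    (h : Even (orderOf (f g))) : Even (commutator G).index := by
  have h1 : commutator G ≤ f.ker := Abelianization.commutator_subset_ker f
  have h2 : f.ker.index ∣ (commutator G).index := Subgroup.index_dvd_of_le h1
  have h3 : orderOf (f g) ∣ f.ker.index := by
    apply orderOf_dvd_of_pow_eq_one
    rw [← map_pow]
    exact MonoidHom.mem_ker.mp (Subgroup.pow_index_mem f.ker g)
  exact (even_iff_two_dvd.mpr ((even_iff_two_dvd.mp h).trans (h3.trans h2)))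

/-- A group of order twice an odd number has commutator subgroup of even index. -/
lemma even_index_of_two (x : G) (hx : orderOf x = 2) (hodd : ¬ 4 ∣ Nat.card G) :
    Even (commutator G).index := by
  classical
  let _ : Fintype G := Fintype.ofFinite G
  let f : G →* ℤˣ := Equiv.Perm.sign.comp (MulAction.toPermHom G G)
  apply even_index_of_hom f x
  have hσ : orderOf (MulAction.toPermHom G G x) = 2 := by
    rw [← hx]
    exact orderOf_injective (MulAction.toPermHom G G) MulAction.toPerm_injective x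
  obtain ⟨n, hn⟩ := Equiv.Perm.cycleType_prime_order (σ := MulAction.toPermHom G G x)
    (by rw [hσ]; exact Nat.prime_two)
  rw [hσ] at hn
  have hsupp : (MulAction.toPermHom G G x).support = Finset.univ := by
    ext g
    simp only [Equiv.Perm.mem_support, Finset.mem_univ, iff_true]
    show x * g ≠ g
    intro h
    have hx1 : x = 1 := by simpa using h
    rw [hx1, orderOf_one] at hx
    omega
  have hsum := Equiv.Perm.sum_cycleType (MulAction.toPermHom G G x)
  rw [hn, hsupp, Multiset.sum_replicate, Finset.card_univ, ← Nat.card_eq_fintype_card] at hsum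
  have hnodd : Odd (n + 1) := by
    rw [← Nat.not_even_iff_odd]
    rintro ⟨k, hk⟩
    apply hodd
    rw [← hsum, hk]
    exact ⟨k, by rw [smul_eq_mul]; ring⟩
  have hsign : f x = -1 := by
    show Equiv.Perm.sign (MulAction.toPermHom G G x) = -1
    rw [Equiv.Perm.sign_of_cycleType, hn, Multiset.sum_replicate, Multiset.card_replicate,
      smul_eq_mul]
    have h3 : Odd ((n + 1) * 2 + (n + 1)) := by
      obtain ⟨k, hk⟩ := hnodd
      exact ⟨3 * k + 1, by rw [hk]; ring⟩
    exact h3.neg_one_pow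
  rw [hsign]
  have h2 : orderOf (-1 : ℤˣ) = 2 := orderOf_eq_prime (by simp) (by decide)
  rw [h2]
  exact even_two

end Cfsg.Agent.Helper23.DegPm1A
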