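import Mathlib
import Cfsg.Agent.Helper23.DegPm1A
import Cfsg.Agent.Helper23.ExcChar
import Cfsg.Agent.Helper25.CharMore
import Cfsg.Agent.Helper1.CharCentral

/-!
# Self-centralizing subgroups of prime order: character-theoretic part

The class function `theta = Ind_P^G (1_P - [u = 1])`, its inner products with irreducible
characters and its norm.
-/

set_option autoImplicit false

namespace Cfsg.Agent.Helper23.DegPm1B

open Cfsg Cfsg.Agent.Helper2 Cfsg.Agent.Helper25 Cfsg.Agent.Helper23.DegPm1A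
open scoped ComplexConjugate

universe u

variable {G : Type u} [Group G]

lemma orderOf_conj_eq (z g : G) : orderOf (z * g * z⁻¹) = orderOf g := by
  have h := orderOf_injective (MulAut.conj z).toMonoidHom (MulAut.conj z).injective g
  simpa using h

lemma orderOf_conj_eq' (z g : G) : orderOf (z⁻¹ * g * z) = orderOf g := by
  have h := orderOf_conj_eq z⁻¹ g
  rwa [inv_inv] at h

open Classical in
/-- The indicator of the nontrivial elements of `P`. -/
noncomputable def phi0 (P : Subgroup G) : P → ℂ := fun u => if u = 1 then 0 else 1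

/-- The induced class function. -/
noncomputable def theta [Fintype G] (P : Subgroup G) : G → ℂ := indFun P (phi0 P)

lemma theta_isClassFunction [Fintype G] (P : Subgroup G) : IsClassFunction G (theta P) :=
  indFun_isClassFunction P _

lemma theta_mem [Fintype G] (p : ℕ) (hp : p.Prime) (P : Subgroup G) (hP : Nat.card P = p) (e : ℕ)
    (hN : Nat.card (Subgroup.normalizer (P : Set G)) = p * e) (u : G) (hu : u ∈ P)
    (hu1 : u ≠ 1) : theta P u = e := by
  classical
  letI : Fintype (Subgroup.normalizer (P : Set G)) := Fintype.ofFinite _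
  have h := ExcChar.indFun_apply_mem P p hp hP (phi0 P) (by simp [phi0]) ⟨u, hu⟩
  have h2 : ∀ x : Subgroup.normalizer (P : Set G),
      phi0 P (ExcChar.cj P x x.2 ⟨u, hu⟩) = 1 := by
    intro x
    unfold phi0
    rw [if_neg]
    intro h3
    apply hu1
    have h4 : ((ExcChar.cj P x x.2 ⟨u, hu⟩ : P) : G) = 1 := by rw [h3]; rfl
    rw [ExcChar.cj_coe] at h4
    have h5 : u = (x : G) * ((x : G)⁻¹ * u * (x : G)) * (x : G)⁻¹ := by group
    rw [h5]
    have h6 : (x : G)⁻¹ * u * (x : G) = 1 := h4
    rw [h6]; group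
  have h7 : theta P u = indFun P (phi0 P) ((⟨u, hu⟩ : P) : G) := rfl
  rw [h7, h]
  simp only [h2, Finset.sum_const, Finset.card_univ, nsmul_eq_mul, mul_one]
  rw [← Nat.card_eq_fintype_card, hN, hP]
  have hp0 : (p : ℂ) ≠ 0 := by exact_mod_cast hp.ne_zero
  push_cast
  field_simp

lemma theta_of_order [Fintype G] (p : ℕ) (hp : p.Prime) (P : Subgroup G) (hP : Nat.card P = p)
    (hcent : ∀ u ∈ P, u ≠ 1 → Subgroup.centralizer ({u} : Set G) = P)
    (u₀ : G) (hu₀ : u₀ ∈ P) (hu₀1 : u₀ ≠ 1) (e : ℕ)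
    (hN : Nat.card (Subgroup.normalizer (P : Set G)) = p * e) (g : G) (hg : orderOf g = p) :
    theta P g = e := by
  obtain ⟨z, hz, hz1⟩ := exists_conj_mem p hp P hP hcent u₀ hu₀ hu₀1 g hg
  rw [← theta_isClassFunction P g z]
  exact theta_mem p hp P hP e hN _ hz hz1

lemma theta_of_order_ne [Fintype G] (p : ℕ) (hp : p.Prime) (P : Subgroup G)
    (hP : Nat.card P = p) (g : G) (hg : orderOf g ≠ p) : theta P g = 0 := by
  unfold theta
  rw [indFun_apply]
  have h0 : ∀ y : G, extendByZero P (phi0 P) (y⁻¹ * g * y) = 0 := by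
    intro y
    by_cases hmem : y⁻¹ * g * y ∈ P
    · rw [extendByZero_of_mem P _ hmem]
      unfold phi0
      rw [if_pos]
      by_contra hne
      apply hg
      have h1 : y⁻¹ * g * y ≠ 1 := fun h => hne (Subtype.ext h)
      have h2 := orderOf_of_mem p hp P hP _ hmem h1
      rw [← h2, orderOf_conj_eq']
    · exact extendByZero_of_not_mem P _ hmem
  simp [h0]

lemma inner_theta [Fintype G] (p : ℕ) (P : Subgroup G) [Fintype P] (hP : Nat.card P = p)
    (ψ : G → ℂ) (hψ : IsClassFunction G ψ) :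
    classInner (theta P) ψ = (p : ℂ)⁻¹ * ∑ u : P, phi0 P u * conj (ψ u) := by
  unfold theta
  rw [frobenius_reciprocity P (phi0 P) ψ hψ]
  unfold classInner
  rw [hP]

lemma sum_phi0_mul (P : Subgroup G) [Fintype P] (f : P → ℂ) :
    ∑ u : P, phi0 P u * f u = ∑ u : P, f u - f 1 := by
  classical
  have h : ∀ u : P, phi0 P u * f u = f u - (if u = 1 then f 1 else 0) := by
    intro u
    unfold phi0
    split_ifs with h
    · rw [h]; ring
    · ring
  simp_rw [h]
  rw [Finset.sum_sub_distrib]
  simp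

lemma mem_classes_iff (p : ℕ) (c : ConjClasses G) :
    (∃ g ∈ c.carrier, orderOf g = p) ↔ orderOf (Quotient.out c) = p := by
  constructor
  · rintro ⟨g, hg, ho⟩
    have h1 : ConjClasses.mk g = c := ConjClasses.mem_carrier_iff_mk_eq.mp hg
    have h2 : ConjClasses.mk (Quotient.out c) = c := Quotient.out_eq c
    have h3 : IsConj g (Quotient.out c) := by
      rw [← ConjClasses.mk_eq_mk_iff_isConj, h1, h2]
    obtain ⟨z, hz⟩ := isConj_iff.mp h3
    rw [← hz, ← ho, orderOf_conj_eq]
  · intro h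
    exact ⟨Quotient.out c, ConjClasses.mem_carrier_iff_mk_eq.mpr (Quotient.out_eq c), h⟩

lemma inner_theta_classes [Fintype G] (p : ℕ) (hp : p.Prime) (P : Subgroup G)
    (hP : Nat.card P = p)
    (hcent : ∀ u ∈ P, u ≠ 1 → Subgroup.centralizer ({u} : Set G) = P)
    (u₀ : G) (hu₀ : u₀ ∈ P) (hu₀1 : u₀ ≠ 1) (e : ℕ)
    (hN : Nat.card (Subgroup.normalizer (P : Set G)) = p * e)
    [Fintype {C : ConjClasses G // ∃ g ∈ C.carrier, orderOf g = p}]
    (ψ : G → ℂ) (hψ : IsClassFunction G ψ) :
    classInner (theta P) ψ = (e : ℂ) / p *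
      ∑ c : {C : ConjClasses G // ∃ g ∈ C.carrier, orderOf g = p},
        conj (ψ (Quotient.out c.1)) := by
  classical
  letI : Fintype (ConjClasses G) := Fintype.ofFinite _
  have hp0 : (p : ℂ) ≠ 0 := by exact_mod_cast hp.ne_zero
  have hG0 : (Nat.card G : ℂ) ≠ 0 := by exact_mod_cast Nat.card_pos.ne'
  unfold classInner
  have hF : IsClassFunction G (fun g => theta P g * conj (ψ g)) := by
    intro g h
    show theta P (h * g * h⁻¹) * conj (ψ (h * g * h⁻¹)) = _
    rw [theta_isClassFunction P g h, hψ g h]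
  rw [Helper1.sum_eq_sum_conjClasses _ hF]
  have hterm : ∀ c : ConjClasses G,
      ((Subgroup.centralizer ({Quotient.out c} : Set G)).index : ℂ) *
        (theta P (Quotient.out c) * conj (ψ (Quotient.out c))) =
      if (∃ g ∈ c.carrier, orderOf g = p) then
        (Nat.card G : ℂ) / p * e * conj (ψ (Quotient.out c)) else 0 := by
    intro c
    split_ifs with h
    · have ho := (mem_classes_iff p c).mp h
      rw [theta_of_order p hp P hP hcent u₀ hu₀ hu₀1 e hN _ ho]
      have hidx : ((Subgroup.centralizer ({Quotient.out c} : Set G)).index : ℂ) =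
          (Nat.card G : ℂ) / p := by
        have h1 := Subgroup.card_mul_index (Subgroup.centralizer ({Quotient.out c} : Set G))
        rw [card_centralizer p hp P hP hcent u₀ hu₀ hu₀1 _ ho] at h1
        rw [← h1]
        push_cast
        field_simp
      rw [hidx]
      ring
    · have ho : orderOf (Quotient.out c) ≠ p := fun h' => h ((mem_classes_iff p c).mpr h')
      rw [theta_of_order_ne p hp P hP _ ho]
      ring
  simp_rw [hterm]
  rw [← Finset.sum_filter,
    Finset.sum_subtype (p := fun c : ConjClasses G => ∃ g ∈ c.carrier, orderOf g = p)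
      (Finset.univ.filter fun c : ConjClasses G => ∃ g ∈ c.carrier, orderOf g = p)
      (by simp) (fun c => (Nat.card G : ℂ) / p * e * conj (ψ (Quotient.out c)))]
  rw [Finset.mul_sum, Finset.mul_sum]
  apply Finset.sum_congr rfl
  intro c _
  field_simp

lemma inner_theta_theta [Fintype G] (p : ℕ) (hp : p.Prime) (P : Subgroup G) [Fintype P]
    (hP : Nat.card P = p) (e : ℕ)
    (hN : Nat.card (Subgroup.normalizer (P : Set G)) = p * e) :
    classInner (theta P) (theta P) = ((p : ℂ) - 1) * e / p := by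
  rw [inner_theta p P hP _ (theta_isClassFunction P)]
  have h : ∀ u : P, phi0 P u * conj (theta P u) = phi0 P u * (e : ℂ) := by
    intro u
    by_cases h : u = 1
    · simp [phi0, h]
    · rw [theta_mem p hp P hP e hN u u.2 (fun h' => h (Subtype.ext h'))]
      simp
  simp_rw [h]
  rw [sum_phi0_mul]
  simp only [Finset.sum_const, Finset.card_univ, nsmul_eq_mul]
  rw [← Nat.card_eq_fintype_card, hP]
  have hp0 : (p : ℂ) ≠ 0 := by exact_mod_cast hp.ne_zero
  field_simp

/-- The inner product of `theta` with an irreducible character. -/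
lemma inner_theta_irr [Fintype G] (p : ℕ) (hp : p.Prime) (P : Subgroup G) [Fintype P]
    (hP : Nat.card P = p) (ψ : IrrCharacter G) :
    ∃ z : ℤ, classInner (theta P) (ψ : G → ℂ) = (z : ℂ) / p ∧
      ∃ a : ℕ, z = (p : ℤ) * a - charDegree (ψ : G → ℂ) ∧
        ∑ u : P, (ψ : G → ℂ) u = (p : ℂ) * a := by
  have hp0 : (p : ℂ) ≠ 0 := by exact_mod_cast hp.ne_zero
  obtain ⟨a, ha⟩ := classInner_char_nat (isCharacter_restrict P (irr_isCharacter ψ))
    (isCharacter_one (G := P))
  unfold classInner at ha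
  rw [hP] at ha
  have hsum : ∑ u : P, (ψ : G → ℂ) u = (p : ℂ) * a := by
    simp only [map_one, mul_one] at ha
    rw [← ha]
    field_simp
  refine ⟨(p : ℤ) * a - charDegree (ψ : G → ℂ), ?_, a, rfl, hsum⟩
  rw [inner_theta p P hP _ (isClassFunction_of_isCharacter (irr_isCharacter ψ)), sum_phi0_mul,
    ← map_sum, hsum]
  have h1 : (ψ : G → ℂ) ((1 : P) : G) = (charDegree (ψ : G → ℂ) : ℂ) := irr_one_eq_degree ψ
  rw [h1]
  simp only [map_mul, Complex.conj_natCast]
  push_cast
  field_simp

/-- Main character-theoretic result: the number of classes of elements of order `p`, and the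
vanishing of the sum over `P` of an irreducible character of degree `p - 1`. -/
theorem main [Fintype G] (p : ℕ) (hp : p.Prime) (P : Subgroup G) [Fintype P]
    (hP : Nat.card P = p)
    (hcent : ∀ u ∈ P, u ≠ 1 → Subgroup.centralizer ({u} : Set G) = P)
    (u₀ : G) (hu₀ : u₀ ∈ P) (hu₀1 : u₀ ≠ 1) (e : ℕ)
    (hN : Nat.card (Subgroup.normalizer (P : Set G)) = p * e) (t : ℕ)
    (ht : Nat.card {C : ConjClasses G // ∃ g ∈ C.carrier, orderOf g = p} = t) :
    e * t + 1 = p ∧ ∀ χ : IrrCharacter G, charDegree (χ : G → ℂ) + 1 = p → 3 ≤ p → 2 ≤ e →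
      ∑ u : P, (χ : G → ℂ) u = 0 := by
  classical
  letI : Fintype {C : ConjClasses G // ∃ g ∈ C.carrier, orderOf g = p} := Fintype.ofFinite _
  have hp0 : (p : ℂ) ≠ 0 := by exact_mod_cast hp.ne_zero
  -- the count of classes
  have hcount : e * t + 1 = p := by
    have hcl : IsClassFunction G (fun _ : G => (1 : ℂ)) := fun _ _ => rfl
    have h1 := inner_theta p P hP (fun _ => 1) hcl
    have h2 := inner_theta_classes p hp P hP hcent u₀ hu₀ hu₀1 e hN (fun _ => 1) hcl
    rw [h1] at h2
    simp only [map_one, mul_one] at h2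
    rw [← mul_one (∑ u : P, phi0 P u)] at h2
    have h3 : ∑ u : P, phi0 P u = ∑ u : P, phi0 P u * (fun _ : P => (1 : ℂ)) u := by simp
    rw [mul_one, h3, sum_phi0_mul] at h2
    simp only [Finset.sum_const, Finset.card_univ, nsmul_eq_mul, mul_one] at h2
    rw [← Nat.card_eq_fintype_card, ← Nat.card_eq_fintype_card, hP, ht] at h2
    have h4 : (p : ℂ) - 1 = (e : ℂ) * t := by
      field_simp at h2
      linear_combination h2
    have h5 : ((e * t + 1 : ℕ) : ℂ) = (p : ℂ) := by
      push_cast
      linear_combination -h4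
    exact_mod_cast h5
  refine ⟨hcount, ?_⟩
  intro χ hχ hp3 he2
  have he0 : e ≠ 0 := by omega
  have ht0 : t ≠ 0 := by
    rintro rfl
    rw [mul_zero] at hcount
    omega
  -- the integers z
  choose zf hzf using fun ψ : IrrCharacter G => inner_theta_irr p hp P hP ψ
  -- Parseval
  have hpars : ∑ ψ : IrrCharacter G, (zf ψ) ^ 2 = (p : ℤ) * ((p : ℤ) - 1) * e := by
    have h1 := classInner_eq_sum_mul (theta_isClassFunction P) (theta P)
    rw [inner_theta_theta p hp P hP e hN] at h1
    have h2 : ∀ ψ : IrrCharacter G,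
        classInner (theta P) (ψ : G → ℂ) * conj (classInner (theta P) (ψ : G → ℂ)) =
          ((zf ψ : ℂ)) ^ 2 / (p : ℂ) ^ 2 := by
      intro ψ
      rw [(hzf ψ).1]
      simp only [map_div₀, map_intCast, Complex.conj_natCast]
      field_simp
    simp_rw [h2] at h1
    rw [← Finset.sum_div] at h1
    have h3 : (∑ ψ : IrrCharacter G, ((zf ψ : ℂ)) ^ 2) = (p : ℂ) * ((p : ℂ) - 1) * e := by
      field_simp at h1
      linear_combination -h1
    have h4 : (((∑ ψ : IrrCharacter G, (zf ψ) ^ 2 : ℤ)) : ℂ) =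
        (((p : ℤ) * ((p : ℤ) - 1) * e : ℤ) : ℂ) := by
      push_cast
      exact h3
    exact_mod_cast h4
  -- the trivial character
  have hztriv : zf (ExcChar.triv G) = (p : ℤ) - 1 := by
    obtain ⟨-, a, ha, hsum⟩ := hzf (ExcChar.triv G)
    have h1 : ∑ u : P, (ExcChar.triv G : G → ℂ) u = (p : ℂ) := by
      simp only [ExcChar.triv_apply, Finset.sum_const, Finset.card_univ, nsmul_eq_mul, mul_one]
      rw [← Nat.card_eq_fintype_card, hP]
    rw [h1] at hsum
    have ha1 : a = 1 := by
      have h2 : (p : ℂ) * 1 = (p : ℂ) * a := by rw [mul_one]; exact hsum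
      have h3 := mul_left_cancel₀ hp0 h2
      exact_mod_cast h3.symm
    have hd : charDegree (ExcChar.triv G : G → ℂ) = 1 := by
      have h4 := irr_one_eq_degree (ExcChar.triv G)
      rw [ExcChar.triv_apply] at h4
      exact_mod_cast h4.symm
    rw [ha, ha1, hd]
    push_cast
    ring
  -- the character χ
  obtain ⟨hzχ, a, ha, hsum⟩ := hzf χ
  have hne : ExcChar.triv G ≠ χ := by
    intro h
    have hd : charDegree (ExcChar.triv G : G → ℂ) = 1 := by
      have h4 := irr_one_eq_degree (ExcChar.triv G)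
      rw [ExcChar.triv_apply] at h4
      exact_mod_cast h4.symm
    rw [h] at hd
    omega
  have hle : (zf (ExcChar.triv G)) ^ 2 + (zf χ) ^ 2 ≤ (p : ℤ) * ((p : ℤ) - 1) * e := by
    have h1 := Finset.sum_pair (f := fun ψ : IrrCharacter G => (zf ψ) ^ 2) hne
    rw [← hpars, ← h1]
    apply Finset.sum_le_sum_of_subset_of_nonneg (Finset.subset_univ _)
    intro ψ _ _
    positivity
  -- divisibility
  have hdvd : e ∣ p * a := by
    apply Helper1.dvd_of_isIntegral_div (p * a) e he0
    have h2 := inner_theta_classes p hp P hP hcent u₀ hu₀ hu₀1 e hN (χ : G → ℂ)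
      (isClassFunction_of_isCharacter (irr_isCharacter χ))
    rw [hzχ, ha] at h2
    have h3 : ((p * a : ℕ) : ℂ) / (e : ℂ) =
        (∑ c : {C : ConjClasses G // ∃ g ∈ C.carrier, orderOf g = p},
          conj ((χ : G → ℂ) (Quotient.out c.1))) + (t : ℂ) := by
      have he0' : (e : ℂ) ≠ 0 := by exact_mod_cast he0
      have h4 : (p : ℂ) = (e : ℂ) * t + 1 := by exact_mod_cast hcount.symm
      have h5 : (charDegree (χ : G → ℂ) : ℂ) = (e : ℂ) * t := by
        have : ((charDegree (χ : G → ℂ) + 1 : ℕ) : ℂ) = (e : ℂ) * t + 1 := by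
          rw [hχ]; exact h4
        push_cast at this
        linear_combination this
      push_cast at h2 ⊢
      rw [h5] at h2
      field_simp at h2 ⊢
      linear_combination h2
    rw [h3]
    apply IsIntegral.add
    · apply IsIntegral.sum
      intro c _
      exact map_isIntegral_int (starRingEnd ℂ) (irr_isIntegral χ _)
    · exact isIntegral_natCast t
  have hcop : Nat.Coprime e p := by
    rw [Nat.coprime_comm, Nat.Prime.coprime_iff_not_dvd hp]
    intro h
    have h1 := Nat.le_of_dvd (Nat.pos_of_ne_zero he0) h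
    have h2 : e ≤ e * t := Nat.le_mul_of_pos_right e (Nat.pos_of_ne_zero ht0)
    omega
  have hdvd' : e ∣ a := hcop.dvd_of_dvd_mul_left hdvd
  have ha0 : a = 0 := by
    by_contra hne0
    have hae : e ≤ a := Nat.le_of_dvd (Nat.pos_of_ne_zero hne0) hdvd'
    rw [hztriv, ha] at hle
    have hd : (charDegree (χ : G → ℂ) : ℤ) = (p : ℤ) - 1 := by
      have : ((charDegree (χ : G → ℂ) + 1 : ℕ) : ℤ) = (p : ℤ) := by rw [hχ]
      push_cast at this
      linarith
    rw [hd] at hle
    have hp3' : (3 : ℤ) ≤ p := by exact_mod_cast hp3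
    have he2' : (2 : ℤ) ≤ e := by exact_mod_cast he2
    have hae' : (e : ℤ) ≤ a := by exact_mod_cast hae
    have hB : (0 : ℤ) < (p : ℤ) * e - ((p : ℤ) - 1) := by nlinarith
    have hAB : (p : ℤ) * e - ((p : ℤ) - 1) ≤ (p : ℤ) * a - ((p : ℤ) - 1) := by nlinarith
    have h1 : ((p : ℤ) * e - ((p : ℤ) - 1)) ^ 2 ≤ ((p : ℤ) * a - ((p : ℤ) - 1)) ^ 2 := by
      apply pow_le_pow_left₀ hB.le hAB
    have h2 : (0 : ℤ) < ((p : ℤ) * e - ((p : ℤ) - 1)) * ((p : ℤ) * e - 2 * ((p : ℤ) - 1)) := by
      apply mul_pos hB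
      nlinarith
    nlinarith
  rw [hsum, ha0]
  simp

end Cfsg.Agent.Helper23.DegPm1B
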