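import Mathlib
import Cfsg.Agent.Helper23.DegPm1A
import Cfsg.Agent.Helper1.CharEquiv
import Cfsg.Agent.Helper25.CharBasic

/-!
# Vanishing of characters off a self-centralizing subgroup; determinants from characters
-/

set_option autoImplicit false

namespace Cfsg.Agent.Helper23.DegPm1C

open Cfsg Cfsg.Agent.Helper23.DegPm1A

universe u

/-- If the sum over `P` of a character vanishes, then the character vanishes on the elements of
the normalizer of `P` outside `P`. -/
theorem vanish {G : Type u} [Group G] [Finite G] (P : Subgroup G) [Fintype P]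
    (hcent : ∀ u ∈ P, u ≠ 1 → Subgroup.centralizer ({u} : Set G) = P)
    {n : ℕ} (ρ : Representation ℂ G (Fin n → ℂ)) (h0 : ∑ u : P, ρ.character u = 0)
    (y : G) (hyN : y ∈ Subgroup.normalizer (P : Set G)) (hyP : y ∉ P) :
    ρ.character y = 0 := by
  classical
  obtain ⟨A, hA⟩ : ∃ A : Module.End ℂ (Fin n → ℂ), A = ∑ u : P, ρ (u : G) := ⟨_, rfl⟩
  have hcard : (Fintype.card P : ℂ) ≠ 0 := by exact_mod_cast Fintype.card_ne_zero
  have hvA : ∀ v : P, ρ (v : G) * A = A := by
    intro v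
    rw [hA, Finset.mul_sum]
    have h1 : ∀ u : P, ρ (v : G) * ρ (u : G) = ρ ((v * u : P) : G) := by
      intro u; rw [Subgroup.coe_mul, map_mul]
    simp_rw [h1]
    exact Fintype.sum_bijective (fun u => v * u) (Group.mulLeft_bijective v) _ _ (fun _ => rfl)
  have hAA : A * A = (Fintype.card P : ℂ) • A := by
    have h1 : A * A = ∑ v : P, ρ (v : G) * A := by
      conv_lhs => rw [hA]
      rw [Finset.sum_mul]
      simp_rw [← hA]
    rw [h1]
    simp_rw [hvA]
    rw [Finset.sum_const, Finset.card_univ, Nat.cast_smul_eq_nsmul]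
  have htr : LinearMap.trace ℂ _ A = 0 := by
    rw [hA, map_sum]; exact h0
  have hB : IsIdempotentElem ((Fintype.card P : ℂ)⁻¹ • A) := by
    show ((Fintype.card P : ℂ)⁻¹ • A) * ((Fintype.card P : ℂ)⁻¹ • A) = _
    rw [smul_mul_smul_comm, hAA, smul_smul, mul_assoc, inv_mul_cancel₀ hcard, mul_one]
  have hB0 : (Fintype.card P : ℂ)⁻¹ • A = 0 :=
    LinearMap.IsIdempotentElem.eq_zero_of_trace_eq_zero hB (by rw [map_smul, htr, smul_zero])
  have hA0 : A = 0 := by
    have h1 : A = (Fintype.card P : ℂ) • ((Fintype.card P : ℂ)⁻¹ • A) := by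
      rw [smul_smul, mul_inv_cancel₀ hcard, one_smul]
    rw [h1, hB0, smul_zero]
  have h1 : ∑ u : P, ρ.character ((u : G) * y) = 0 := by
    have h2 : ∀ u : P, ρ.character ((u : G) * y) = LinearMap.trace ℂ _ (ρ (u : G) * ρ y) := by
      intro u; rw [← map_mul]; rfl
    simp_rw [h2]
    rw [← map_sum, ← Finset.sum_mul, ← hA, hA0, zero_mul, map_zero]
  have h3 := sum_coset P hcent y hyN hyP ρ.character (fun g h => ρ.char_conj g h)
  rw [h3] at h1
  rw [nsmul_eq_mul] at h1
  rcases mul_eq_zero.mp h1 with h | h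
  · exact absurd h hcard
  · exact h

/-- The determinant of a representation whose character is a sum of linear characters. -/
theorem det_eq_prod {H : Type u} [Group H] [Finite H] {V : Type*} [AddCommGroup V] [Module ℂ V]
    [FiniteDimensional ℂ V] (ρ : Representation ℂ H V) {ι : Type*} [Fintype ι]
    (μ : ι → H →* ℂˣ) (hchar : ∀ h : H, ρ.character h = ∑ i, ((μ i h : ℂˣ) : ℂ)) (h : H) :
    LinearMap.det (ρ h) = ∏ i, ((μ i h : ℂˣ) : ℂ) := by
  classical
  letI : Fintype H := Fintype.ofFinite H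
  let σ : Representation ℂ H (ι → ℂ) :=
    { toFun := fun h => Matrix.toLin' (Matrix.diagonal fun i => ((μ i h : ℂˣ) : ℂ))
      map_one' := by
        simp
        rfl
      map_mul' := fun a b => by
        have h1 : (Matrix.diagonal fun i => ((μ i (a * b) : ℂˣ) : ℂ)) =
            (Matrix.diagonal fun i => ((μ i a : ℂˣ) : ℂ)) *
              (Matrix.diagonal fun i => ((μ i b : ℂˣ) : ℂ)) := by
          rw [Matrix.diagonal_mul_diagonal]
          congr 1
          funext i
          rw [map_mul, Units.val_mul]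
        rw [h1, Matrix.toLin'_mul]
        rfl }
  have hσ : ∀ h : H, σ h = Matrix.toLin' (Matrix.diagonal fun i => ((μ i h : ℂˣ) : ℂ)) :=
    fun _ => rfl
  have hσchar : ρ.character = σ.character := by
    funext h
    rw [hchar h]
    show _ = LinearMap.trace ℂ _ (σ h)
    rw [hσ, Matrix.trace_toLin'_eq, Matrix.trace_diagonal]
  obtain ⟨e⟩ := Helper1.nonempty_equiv_of_character_eq ρ σ hσchar
  have h1 : σ h = e.toLinearEquiv.toLinearMap ∘ₗ (ρ h) ∘ₗ e.toLinearEquiv.symm.toLinearMap := by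
    refine LinearMap.ext fun w => ?_
    have h2 := Helper1.itw e.toIntertwiningMap h (e.toLinearEquiv.symm w)
    have h3 : e.toIntertwiningMap (e.toLinearEquiv.symm w) = w :=
      e.toLinearEquiv.apply_symm_apply _
    rw [h3] at h2
    exact h2.symm
  have h4 : LinearMap.det (σ h) = LinearMap.det (ρ h) := by
    rw [h1, LinearMap.det_conj]
  rw [← h4, hσ, LinearMap.det_toLin', Matrix.det_diagonal]

/-- The determinant at an element `g` of even order `m` of a representation of degree `m * s`,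
`s` odd, whose character vanishes at the nontrivial powers of `g`, is `-1`. -/
theorem det_neg_one {G : Type u} [Group G] [Finite G] {n : ℕ}
    (ρ : Representation ℂ G (Fin n → ℂ)) (g : G) (m s : ℕ) (hm : orderOf g = m)
    (hm2 : Even m) (hs : Odd s) (hn : n = m * s)
    (hvan : ∀ i, 0 < i → i < m → ρ.character (g ^ i) = 0) :
    LinearMap.det (ρ g) = -1 := by
  classical
  have hm0 : 0 < m := hm ▸ orderOf_pos g
  haveI : NeZero m := ⟨hm0.ne'⟩
  obtain ⟨H, hH⟩ : ∃ H : Subgroup G, H = Subgroup.zpowers g := ⟨_, rfl⟩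
  have hgH : g ∈ H := hH ▸ Subgroup.mem_zpowers g
  have hHcard : Nat.card H = m := by rw [hH, Nat.card_zpowers, hm]
  haveI : IsCyclic H := by rw [hH]; infer_instance
  have hcardeq : Nat.card H = Nat.card (rootsOfUnity m ℂ) := by
    rw [hHcard, HasEnoughRootsOfUnity.natCard_rootsOfUnity ℂ m]
  let E : H ≃* rootsOfUnity m ℂ := mulEquivOfCyclicCardEq hcardeq
  let ψ : H →* ℂˣ := (rootsOfUnity m ℂ).subtype.comp E.toMonoidHom
  have hψinj : Function.Injective ψ := by
    intro a b hab
    apply E.injective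
    exact Subtype.ext hab
  let ρH : Representation ℂ H (Fin n → ℂ) := ρ.comp H.subtype
  let μ : Fin m × Fin s → H →* ℂˣ := fun ij => ψ ^ (ij.1 : ℕ)
  have hμ : ∀ (ij : Fin m × Fin s) (h : H), ((μ ij h : ℂˣ) : ℂ) = ((ψ h : ℂˣ) : ℂ) ^ (ij.1 : ℕ) := by
    intro ij h
    show (((ψ ^ (ij.1 : ℕ)) h : ℂˣ) : ℂ) = _
    rw [MonoidHom.pow_apply, Units.val_pow_eq_pow_val]
  have hsumμ : ∀ h : H, ∑ ij : Fin m × Fin s, ((μ ij h : ℂˣ) : ℂ) =
      (s : ℂ) * ∑ i ∈ Finset.range m, ((ψ h : ℂˣ) : ℂ) ^ i := by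
    intro h
    simp_rw [hμ]
    rw [Fintype.sum_prod_type]
    simp only [Finset.sum_const, Finset.card_univ, Fintype.card_fin, nsmul_eq_mul]
    rw [← Finset.mul_sum, Fin.sum_univ_eq_sum_range (fun i => ((ψ h : ℂˣ) : ℂ) ^ i) m]
  have hchar : ∀ h : H, ρH.character h = ∑ ij : Fin m × Fin s, ((μ ij h : ℂˣ) : ℂ) := by
    intro h
    rw [hsumμ]
    have hρH : ρH.character h = ρ.character (h : G) := rfl
    rw [hρH]
    by_cases h1 : h = 1
    · rw [h1, map_one, Units.val_one]
      simp only [one_pow, Finset.sum_const, Finset.card_range, nsmul_eq_mul, mul_one]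
      rw [OneMemClass.coe_one, Helper25.rep_char_one, hn]
      push_cast
      ring
    · have hw1 : ((ψ h : ℂˣ) : ℂ) ≠ 1 := by
        intro hw
        apply h1
        apply hψinj
        rw [map_one]
        exact Units.ext hw
      have hwm : ((ψ h : ℂˣ) : ℂ) ^ m = 1 := by
        rw [← Units.val_pow_eq_pow_val, ← map_pow, ← hHcard, pow_card_eq_one', map_one,
          Units.val_one]
      have hgeom := mul_geom_sum ((ψ h : ℂˣ) : ℂ) m
      rw [hwm, sub_self] at hgeom
      have hsum0 : ∑ i ∈ Finset.range m, ((ψ h : ℂˣ) : ℂ) ^ i = 0 := by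
        rcases mul_eq_zero.mp hgeom with h2 | h2
        · exact absurd (sub_eq_zero.mp h2) hw1
        · exact h2
      rw [hsum0, mul_zero]
      have hmem : (h : G) ∈ Submonoid.powers g := by
        rw [(isOfFinOrder_of_finite g).mem_powers_iff_mem_zpowers, ← hH]
        exact h.2
      rw [mem_powers_iff_mem_range_orderOf] at hmem
      obtain ⟨i, hi, hgi⟩ := Finset.mem_image.mp hmem
      rw [Finset.mem_range, hm] at hi
      have hgi' : g ^ i = (h : G) := hgi
      rw [← hgi']
      apply hvan i _ hi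
      rcases Nat.eq_zero_or_pos i with h0 | h0
      · exfalso
        apply h1
        apply Subtype.ext
        rw [← hgi', h0, pow_zero]
        rfl
      · exact h0
  have hdet := det_eq_prod ρH μ hchar ⟨g, hgH⟩
  have hρg : ρH ⟨g, hgH⟩ = ρ g := rfl
  rw [hρg] at hdet
  rw [hdet]
  simp_rw [hμ]
  rw [Fintype.prod_prod_type]
  simp only [Finset.prod_const, Finset.card_univ, Fintype.card_fin]
  rw [Finset.prod_pow, Fin.prod_univ_eq_prod_range (fun i => ((ψ ⟨g, hgH⟩ : ℂˣ) : ℂ) ^ i) m,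
    Finset.prod_pow_eq_pow_sum, Finset.sum_range_id]
  -- the primitive root
  obtain ⟨k, hk⟩ := hm2
  have hk0 : 0 < k := by omega
  have hord : orderOf (ψ ⟨g, hgH⟩) = m := by
    rw [orderOf_injective ψ hψinj, Subgroup.orderOf_mk, hm]
  have hζk : ((ψ ⟨g, hgH⟩ : ℂˣ) : ℂ) ^ k = -1 := by
    have h1 : (((ψ ⟨g, hgH⟩ : ℂˣ) : ℂ) ^ k) ^ 2 = 1 := by
      rw [← pow_mul, ← Units.val_pow_eq_pow_val]
      have : k * 2 = orderOf (ψ ⟨g, hgH⟩) := by rw [hord]; omega
      rw [this, pow_orderOf_eq_one, Units.val_one]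
    have h2 : ((ψ ⟨g, hgH⟩ : ℂˣ) : ℂ) ^ k ≠ 1 := by
      intro h
      have h3 : (ψ ⟨g, hgH⟩) ^ k = 1 := by
        apply Units.ext
        rw [Units.val_pow_eq_pow_val, h, Units.val_one]
      have h4 := orderOf_dvd_of_pow_eq_one h3
      rw [hord] at h4
      have := Nat.le_of_dvd hk0 h4
      omega
    have h5 : (((ψ ⟨g, hgH⟩ : ℂˣ) : ℂ) ^ k - 1) * (((ψ ⟨g, hgH⟩ : ℂˣ) : ℂ) ^ k + 1) = 0 := by
      linear_combination h1
    rcases mul_eq_zero.mp h5 with h6 | h6
    · exact absurd (sub_eq_zero.mp h6) h2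
    · exact eq_neg_of_add_eq_zero_left h6
  have hexp : m * (m - 1) / 2 = k * (2 * k - 1) := by
    rw [hk]
    have : (k + k) * (k + k - 1) = (k * (2 * k - 1)) * 2 := by
      have : k + k - 1 = 2 * k - 1 := by omega
      rw [this]; ring
    rw [this, Nat.mul_div_cancel _ (by norm_num)]
  rw [hexp, pow_mul, hζk]
  have hodd : Odd (2 * k - 1) := by
    refine ⟨k - 1, ?_⟩
    omega
  rw [hodd.neg_one_pow, hs.neg_one_pow]

end Cfsg.Agent.Helper23.DegPm1C
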