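import Mathlib
import Cfsg.Agent.S0003
import Cfsg.Agent.Helper4.MinNormal
import Cfsg.Agent.Helper11.EPPO

set_option autoImplicit false

namespace Cfsg.Agent.Helper23.HallCount

open Cfsg.Agent.S0001 Cfsg.Agent.S0003
open scoped Pointwise commutatorElement

universe u

variable {G : Type u} [Group G]

/-- The centraliser of a join. -/
lemma centralizer_sup (T P : Subgroup G) :
    Subgroup.centralizer ((T ⊔ P : Subgroup G) : Set G) =
      Subgroup.centralizer (T : Set G) ⊓ Subgroup.centralizer (P : Set G) := by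
  apply le_antisymm
  · exact le_inf (Subgroup.centralizer_le (by exact_mod_cast (le_sup_left : T ≤ T ⊔ P)))
      (Subgroup.centralizer_le (by exact_mod_cast (le_sup_right : P ≤ T ⊔ P)))
  · intro x hx
    obtain ⟨hxT, hxP⟩ := Subgroup.mem_inf.mp hx
    rw [Subgroup.mem_centralizer_iff] at hxT hxP ⊢
    have hle : T ⊔ P ≤ Subgroup.centralizer ({x} : Set G) := by
      apply sup_le
      · intro t ht
        rw [Subgroup.mem_centralizer_iff]
        intro h hh
        rw [Set.mem_singleton_iff.mp hh]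
        exact (hxT t ht).symm
      · intro t ht
        rw [Subgroup.mem_centralizer_iff]
        intro h hh
        rw [Set.mem_singleton_iff.mp hh]
        exact (hxP t ht).symm
    intro h hh
    have := hle hh
    rw [Subgroup.mem_centralizer_iff] at this
    exact (this x rfl).symm

/-- The index of the centraliser of `M` in `N`. -/
noncomputable def cN (N M : Subgroup G) : ℕ :=
  (N ⊓ Subgroup.centralizer (M : Set G)).relIndex N

/-- A number is a product of powers of `q` dividing `|N|`, each congruent to `1` modulo a prime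
divisor of `|M|`. -/
def GoodList (q : ℕ) (N M : Subgroup G) (c : ℕ) : Prop :=
  ∃ l : List ℕ, l.prod = c ∧ ∀ f ∈ l, (∃ e : ℕ, f = q ^ e) ∧ f ∣ Nat.card N ∧
    ∃ p : ℕ, p.Prime ∧ p ∣ Nat.card M ∧ f ≡ 1 [MOD p]

/-- The key congruence: a `p`-subgroup `P` of `M` acts on the centraliser in `N` of a subgroup
`T` containing the commutator subgroup of `M`. -/
lemma step_modEq [Finite G] (q : ℕ) (hq : q.Prime) (N : Subgroup G) [hNn : N.Normal]
    (hN : IsPGroup q N) (M T P : Subgroup G) (hTM : T ≤ M) (hcomm : ⁅M, M⁆ ≤ T) (hPM : P ≤ M)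
    (p : ℕ) (hp : p.Prime) (hP : IsPGroup p P) (hpq : p ≠ q) :
    (N ⊓ Subgroup.centralizer ((T ⊔ P : Subgroup G) : Set G)).relIndex
      (N ⊓ Subgroup.centralizer (T : Set G)) ≡ 1 [MOD p] := by
  haveI : Fact p.Prime := ⟨hp⟩
  haveI : Fact q.Prime := ⟨hq⟩
  obtain ⟨D1, hD1⟩ : ∃ D1 : Subgroup G, D1 = N ⊓ Subgroup.centralizer (T : Set G) := ⟨_, rfl⟩
  obtain ⟨D2, hD2⟩ : ∃ D2 : Subgroup G,
      D2 = N ⊓ Subgroup.centralizer ((T ⊔ P : Subgroup G) : Set G) := ⟨_, rfl⟩
  rw [← hD1, ← hD2]
  have hD21 : D2 ≤ D1 := by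
    rw [hD1, hD2]
    exact inf_le_inf_left _ (Subgroup.centralizer_le (by exact_mod_cast (le_sup_left : T ≤ T ⊔ P)))
  -- `M` normalises `T`
  have hnorm : ∀ g ∈ M, ∀ t ∈ T, g * t * g⁻¹ ∈ T := by
    intro g hg t ht
    have h1 : ⁅g, t⁆ ∈ T := hcomm (Subgroup.commutator_mem_commutator hg (hTM ht))
    have h2 : g * t * g⁻¹ = ⁅g, t⁆ * t := by rw [commutatorElement_def]; group
    rw [h2]
    exact T.mul_mem h1 ht
  have hinv : ∀ (g : P) (x : D1), (g : G) * (x : G) * (g : G)⁻¹ ∈ D1 := by
    intro g x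
    have hx : (x : G) ∈ N ⊓ Subgroup.centralizer (T : Set G) := le_of_eq hD1 x.2
    obtain ⟨hxN, hxT⟩ := Subgroup.mem_inf.mp hx
    refine le_of_eq hD1.symm (Subgroup.mem_inf.mpr ⟨hNn.conj_mem _ hxN _, ?_⟩)
    rw [Subgroup.mem_centralizer_iff] at hxT ⊢
    intro t ht
    have ht' : (g : G)⁻¹ * t * ((g : G)⁻¹)⁻¹ ∈ T :=
      hnorm _ (M.inv_mem (hPM g.2)) t ht
    have h1 := hxT _ ht'
    calc t * ((g : G) * (x : G) * (g : G)⁻¹)
        = (g : G) * (((g : G)⁻¹ * t * ((g : G)⁻¹)⁻¹) * (x : G)) * (g : G)⁻¹ := by group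
      _ = (g : G) * ((x : G) * ((g : G)⁻¹ * t * ((g : G)⁻¹)⁻¹)) * (g : G)⁻¹ := by rw [h1]
      _ = (g : G) * (x : G) * (g : G)⁻¹ * t := by group
  letI act : MulAction P D1 :=
    { smul := fun g x => ⟨(g : G) * (x : G) * (g : G)⁻¹, hinv g x⟩
      one_smul := fun x => Subtype.ext (by
        show ((1 : P) : G) * (x : G) * ((1 : P) : G)⁻¹ = x
        simp)
      mul_smul := fun g h x => Subtype.ext (by
        show ((g * h : P) : G) * (x : G) * ((g * h : P) : G)⁻¹ =
          (g : G) * ((h : G) * (x : G) * (h : G)⁻¹) * (g : G)⁻¹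
        simp [mul_assoc]) }
  have hsmul : ∀ (g : P) (x : D1), ((g • x : D1) : G) = (g : G) * (x : G) * (g : G)⁻¹ :=
    fun _ _ => rfl
  have key := hP.card_modEq_card_fixedPoints (α := D1)
  have hfix : (MulAction.fixedPoints P D1 : Set D1) = ((D2.subgroupOf D1 : Subgroup D1) : Set D1) := by
    ext x
    rw [MulAction.mem_fixedPoints, SetLike.mem_coe, Subgroup.mem_subgroupOf, hD2, centralizer_sup]
    have hx : (x : G) ∈ N ⊓ Subgroup.centralizer (T : Set G) := le_of_eq hD1 x.2
    obtain ⟨hxN, hxT⟩ := Subgroup.mem_inf.mp hx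
    constructor
    · intro h
      refine Subgroup.mem_inf.mpr ⟨hxN, Subgroup.mem_inf.mpr ⟨hxT, ?_⟩⟩
      rw [Subgroup.mem_centralizer_iff]
      intro g hg
      have h1 := congrArg Subtype.val (h ⟨g, hg⟩)
      rw [hsmul] at h1
      calc g * (x : G) = g * (x : G) * g⁻¹ * g := by group
        _ = (x : G) * g := by rw [h1]
    · intro h g
      have h2 := (Subgroup.mem_inf.mp (Subgroup.mem_inf.mp h).2).2
      rw [Subgroup.mem_centralizer_iff] at h2
      apply Subtype.ext
      rw [hsmul, h2 g g.2]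
      group
  have hcardfix : Nat.card (MulAction.fixedPoints P D1) = Nat.card D2 := by
    rw [← card_subgroupOf_of_le hD21]
    exact Nat.card_congr (Equiv.setCongr hfix)
  rw [hcardfix] at key
  have hmul : D2.relIndex D1 * Nat.card D2 = Nat.card D1 := by
    have := Subgroup.card_mul_index (D2.subgroupOf D1)
    rw [card_subgroupOf_of_le hD21] at this
    rw [← this, Subgroup.relIndex, mul_comm]
  have hcop : p.gcd (Nat.card D2) = 1 := by
    obtain ⟨a, ha⟩ := (IsPGroup.iff_card (p := q) (G := N)).mp hN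
    have hdvd : Nat.card D2 ∣ q ^ a := by
      rw [← ha]
      apply Subgroup.card_dvd_of_le
      rw [hD2]
      exact inf_le_left
    obtain ⟨b, -, hb⟩ := (Nat.dvd_prime_pow hq).mp hdvd
    rw [hb]
    exact Nat.Coprime.pow_right _ ((Nat.coprime_primes hp hq).mpr hpq)
  apply Nat.ModEq.cancel_right_of_coprime hcop
  rw [hmul, one_mul]
  exact key

/-- A proper subgroup `T` of `M` misses some subgroup of `M` of prime power order. -/
lemma exists_pgroup_not_le [Finite G] (M T : Subgroup G) (hT : T < M) :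
    ∃ (p : ℕ) (P : Subgroup G), p.Prime ∧ IsPGroup p P ∧ P ≤ M ∧ ¬ P ≤ T := by
  by_contra hcon
  push Not at hcon
  have hdvd : Nat.card M ∣ Nat.card T := by
    apply (Nat.factorization_prime_le_iff_dvd Nat.card_pos.ne' Nat.card_pos.ne').mp
    intro p hp
    haveI : Fact p.Prime := ⟨hp⟩
    obtain ⟨Q⟩ : Nonempty (Sylow p M) := inferInstance
    have h1 : (Q : Subgroup M).map M.subtype ≤ T :=
      hcon p _ hp (Q.isPGroup'.map M.subtype) (Subgroup.map_subtype_le _)
    have h2 : Nat.card ((Q : Subgroup M).map M.subtype) = p ^ (Nat.card M).factorization p := by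
      rw [Subgroup.card_map_of_injective M.subtype_injective, Sylow.card_eq_multiplicity]
    have h3 := Subgroup.card_dvd_of_le h1
    rw [h2] at h3
    exact (Nat.Prime.pow_dvd_iff_le_factorization hp Nat.card_pos.ne').mp h3
  have hlt := card_lt_of_lt hT
  have hle := Nat.le_of_dvd Nat.card_pos hdvd
  omega

/-- **The index of a centraliser under a coprime solvable action.**  Let `N` be a normal
`q`-subgroup of the finite solvable group `G` and `M` a subgroup of order prime to `q`.  Then
the index of `C_N(M)` in `N` is a product of powers of `q`, each congruent to `1` modulo a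
prime divisor of `|M|`. -/
theorem good_cN [Finite G] [Group.IsSolvable G] (q : ℕ) (hq : q.Prime) (N : Subgroup G)
    [hNn : N.Normal] (hN : IsPGroup q N) :
    ∀ k : ℕ, ∀ M : Subgroup G, Nat.card M = k → (Nat.card M).Coprime q →
      GoodList q N M (cN N M) := by
  haveI : Fact q.Prime := ⟨hq⟩
  obtain ⟨a, ha⟩ := (IsPGroup.iff_card (p := q) (G := N)).mp hN
  intro k
  induction k using Nat.strong_induction_on with
  | _ k ih =>
  intro M hMk hcop
  by_cases hM : M = ⊥
  · refine ⟨[], ?_, fun f hf => absurd hf (List.not_mem_nil)⟩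
    rw [List.prod_nil, cN, hM]
    have : N ⊓ Subgroup.centralizer (((⊥ : Subgroup G) : Subgroup G) : Set G) = N := by
      apply le_antisymm inf_le_left
      refine le_inf le_rfl (fun x _ => ?_)
      rw [Subgroup.mem_centralizer_iff]
      intro h hh
      rw [Subgroup.mem_bot.mp hh]
      simp
    rw [this, Subgroup.relIndex_self]
  · have hlt : ⁅M, M⁆ < M := Group.IsSolvable.commutator_lt_of_ne_bot hM
    have hbase : GoodList q N M (cN N ⁅M, M⁆) := by
      obtain ⟨l, hl, hl'⟩ := ih (Nat.card (⁅M, M⁆ : Subgroup G)) (by rw [← hMk]; exact card_lt_of_lt hlt)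
        ⁅M, M⁆ rfl (Nat.Coprime.coprime_dvd_left (Subgroup.card_dvd_of_le hlt.le) hcop)
      refine ⟨l, hl, fun f hf => ?_⟩
      obtain ⟨h1, h2, p, hp, hpd, hpm⟩ := hl' f hf
      exact ⟨h1, h2, p, hp, hpd.trans (Subgroup.card_dvd_of_le hlt.le), hpm⟩
    -- a maximal subgroup between the commutator subgroup and `M` with a good index
    obtain ⟨T, hTle, hTmax⟩ := Finite.exists_le_maximal
      (p := fun T : Subgroup G => ⁅M, M⁆ ≤ T ∧ T ≤ M ∧ GoodList q N M (cN N T))
      (a := ⁅M, M⁆) ⟨le_rfl, hlt.le, hbase⟩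
    obtain ⟨hT1, hT2, hT3⟩ := hTmax.prop
    by_cases hTM : T = M
    · rw [← hTM]
      obtain ⟨l, hl, hl'⟩ := hT3
      refine ⟨l, hl, fun f hf => ?_⟩
      obtain ⟨h1, h2, p, hp, hpd, hpm⟩ := hl' f hf
      exact ⟨h1, h2, p, hp, by rw [hTM]; exact hpd, hpm⟩
    · exfalso
      obtain ⟨p, P, hp, hP, hPM, hPT⟩ := exists_pgroup_not_le M T (lt_of_le_of_ne hT2 hTM)
      -- `p` divides `|M|`
      have hpM : p ∣ Nat.card M := by
        haveI : Fact p.Prime := ⟨hp⟩
        obtain ⟨b, hb⟩ := (IsPGroup.iff_card (p := p) (G := P)).mp hP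
        have hb0 : b ≠ 0 := by
          rintro rfl
          rw [pow_zero] at hb
          have : P = ⊥ := (Subgroup.card_eq_one).mp hb
          exact hPT (by rw [this]; exact bot_le)
        have : p ∣ Nat.card P := by rw [hb]; exact dvd_pow_self p hb0
        exact this.trans (Subgroup.card_dvd_of_le hPM)
      have hpq : p ≠ q := by
        rintro rfl
        have := Nat.Coprime.eq_one_of_dvd hcop.symm hpM
        exact hp.one_lt.ne' this
      have hmod := step_modEq q hq N hN M T P hT2 hT1 hPM p hp hP hpq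
      have hle : T ≤ T ⊔ P := le_sup_left
      have hD21 : N ⊓ Subgroup.centralizer ((T ⊔ P : Subgroup G) : Set G) ≤
          N ⊓ Subgroup.centralizer (T : Set G) :=
        inf_le_inf_left _ (Subgroup.centralizer_le (by exact_mod_cast hle))
      have hmul := Subgroup.relIndex_mul_relIndex _ _ N hD21 inf_le_left
      obtain ⟨l, hl, hl'⟩ := hT3
      have hgood : GoodList q N M (cN N (T ⊔ P)) := by
        refine ⟨(N ⊓ Subgroup.centralizer ((T ⊔ P : Subgroup G) : Set G)).relIndex
          (N ⊓ Subgroup.centralizer (T : Set G)) :: l, ?_, ?_⟩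
        · rw [List.prod_cons, hl]
          exact hmul
        · intro f hf
          rcases List.mem_cons.mp hf with rfl | hf
          · have hdvd : (N ⊓ Subgroup.centralizer ((T ⊔ P : Subgroup G) : Set G)).relIndex
                (N ⊓ Subgroup.centralizer (T : Set G)) ∣ Nat.card N :=
              (Subgroup.relIndex_dvd_card _ _).trans (Subgroup.card_dvd_of_le inf_le_left)
            refine ⟨?_, hdvd, p, hp, hpM, hmod⟩
            rw [ha] at hdvd
            obtain ⟨e, -, he⟩ := (Nat.dvd_prime_pow hq).mp hdvd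
            exact ⟨e, he⟩
          · exact hl' f hf
      have hmem : ⁅M, M⁆ ≤ T ⊔ P ∧ T ⊔ P ≤ M ∧ GoodList q N M (cN N (T ⊔ P)) :=
        ⟨hT1.trans hle, sup_le hT2 hPM, hgood⟩
      have := hTmax.le_of_ge hmem hle
      exact hPT (le_sup_right.trans this)

/-- The centraliser index is invariant under conjugation. -/
lemma cN_conj (N : Subgroup G) [hNn : N.Normal] (g : G) (H0 : Subgroup G) :
    cN N (MulAut.conj g • H0) = cN N H0 := by
  unfold cN
  have h1 : N ⊓ Subgroup.centralizer ((MulAut.conj g • H0 : Subgroup G) : Set G) =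
      MulAut.conj g • (N ⊓ Subgroup.centralizer (H0 : Set G)) := by
    ext x
    rw [Subgroup.mem_pointwise_smul_iff_inv_smul_mem, Subgroup.mem_inf, Subgroup.mem_inf]
    have hx : (MulAut.conj g)⁻¹ • x = g⁻¹ * x * g := by
      rw [MulAut.smul_def, MulAut.conj_inv_apply]
    rw [hx]
    constructor
    · rintro ⟨hxN, hxC⟩
      refine ⟨by simpa using hNn.conj_mem x hxN g⁻¹, ?_⟩
      rw [Subgroup.mem_centralizer_iff] at hxC ⊢
      intro h hh
      have hmem : g * h * g⁻¹ ∈ ((MulAut.conj g • H0 : Subgroup G) : Set G) :=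
        (Subgroup.mem_smul_pointwise_iff_exists _ _ _).mpr ⟨h, hh, by
          rw [MulAut.smul_def, MulAut.conj_apply]⟩
      have := hxC (g * h * g⁻¹) hmem
      calc h * (g⁻¹ * x * g) = g⁻¹ * ((g * h * g⁻¹) * x) * g := by group
        _ = g⁻¹ * (x * (g * h * g⁻¹)) * g := by rw [this]
        _ = g⁻¹ * x * g * h := by group
    · rintro ⟨hxN, hxC⟩
      refine ⟨?_, ?_⟩
      · have := hNn.conj_mem _ hxN g
        have e : g * (g⁻¹ * x * g) * g⁻¹ = x := by group
        rwa [e] at this
      · rw [Subgroup.mem_centralizer_iff] at hxC ⊢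
        intro y hy
        obtain ⟨h, hh, rfl⟩ := (Subgroup.mem_smul_pointwise_iff_exists _ _ _).mp hy
        have := hxC h hh
        rw [MulAut.smul_def, MulAut.conj_apply]
        calc g * h * g⁻¹ * x = g * (h * (g⁻¹ * x * g)) * g⁻¹ := by group
          _ = g * ((g⁻¹ * x * g) * h) * g⁻¹ := by rw [this]
          _ = x * (g * h * g⁻¹) := by group
  rw [h1]
  have h2 := Subgroup.relIndex_pointwise_smul (MulAut.conj g)
    (N ⊓ Subgroup.centralizer (H0 : Set G)) N
  rw [Subgroup.Normal.conj_smul_eq_self g N] at h2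
  exact h2

/-- The number of subgroups of order `m` with the same image as `H1` modulo the normal subgroup
`N` of order prime to `m` is the index of the centraliser of `H1` in `N`. -/
lemma fiber_card_aux [Finite G] (N : Subgroup G) [hNn : N.Normal] (hNsol : Group.IsSolvable N)
    (m : ℕ) (hNm : (Nat.card N).Coprime m) (H1 : Subgroup G) (hH1 : Nat.card H1 = m) :
    Nat.card {H : Subgroup G // Nat.card H = m ∧
      H.map (QuotientGroup.mk' N) = H1.map (QuotientGroup.mk' N)} = cN N H1 := by
  have hdisj : ∀ H : Subgroup G, Nat.card H = m → N ⊓ H = ⊥ := fun H hH =>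
    disjoint_iff.mp (Subgroup.disjoint_of_coprime_natCard (by rw [hH]; exact hNm))
  letI act : MulAction N (Subgroup G) :=
    MulAction.compHom (Subgroup G) ((MulAut.conj : G →* MulAut G).comp N.subtype)
  have hsm : ∀ (x : N) (H : Subgroup G), x • H = MulAut.conj (x : G) • H := fun _ _ => rfl
  have h1 := MulAction.index_stabilizer N H1
  have hstab : MulAction.stabilizer N H1 =
      (N ⊓ Subgroup.centralizer (H1 : Set G)).subgroupOf N := by
    ext x
    rw [MulAction.mem_stabilizer_iff, hsm, Subgroup.mem_subgroupOf, Subgroup.mem_inf]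
    constructor
    · intro hx
      refine ⟨x.2, ?_⟩
      rw [Subgroup.mem_centralizer_iff]
      intro h hh
      have hmem : (x : G) * h * (x : G)⁻¹ ∈ H1 := by
        have : (x : G) * h * (x : G)⁻¹ ∈ MulAut.conj (x : G) • H1 :=
          (Subgroup.mem_smul_pointwise_iff_exists _ _ _).mpr ⟨h, hh, by
            rw [MulAut.smul_def, MulAut.conj_apply]⟩
        rwa [hx] at this
      have hcomm : (x : G) * h * (x : G)⁻¹ * h⁻¹ = 1 := by
        have hN' : (x : G) * h * (x : G)⁻¹ * h⁻¹ ∈ N := by
          have : (x : G) * (h * (x : G)⁻¹ * h⁻¹) ∈ N :=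
            N.mul_mem x.2 (hNn.conj_mem _ (N.inv_mem x.2) h)
          have e : (x : G) * (h * (x : G)⁻¹ * h⁻¹) = (x : G) * h * (x : G)⁻¹ * h⁻¹ := by group
          rwa [e] at this
        have hH' : (x : G) * h * (x : G)⁻¹ * h⁻¹ ∈ H1 := H1.mul_mem hmem (H1.inv_mem hh)
        have : (x : G) * h * (x : G)⁻¹ * h⁻¹ ∈ N ⊓ H1 := Subgroup.mem_inf.mpr ⟨hN', hH'⟩
        rw [hdisj H1 hH1] at this
        exact Subgroup.mem_bot.mp this
      calc h * (x : G) = ((x : G) * h * (x : G)⁻¹ * h⁻¹)⁻¹ * ((x : G) * h) := by group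
        _ = (x : G) * h := by rw [hcomm]; simp
    · rintro ⟨-, hx⟩
      rw [Subgroup.mem_centralizer_iff] at hx
      have hfix : ∀ h ∈ H1, (x : G) * h * (x : G)⁻¹ = h := by
        intro h hh
        have := hx h hh
        calc (x : G) * h * (x : G)⁻¹ = (h * (x : G)) * (x : G)⁻¹ := by rw [this]
          _ = h := by group
      apply le_antisymm
      · intro y hy
        obtain ⟨h, hh, rfl⟩ := (Subgroup.mem_smul_pointwise_iff_exists _ _ _).mp hy
        rw [MulAut.smul_def, MulAut.conj_apply, hfix h hh]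
        exact hh
      · intro h hh
        exact (Subgroup.mem_smul_pointwise_iff_exists _ _ _).mpr ⟨h, hh, by
          rw [MulAut.smul_def, MulAut.conj_apply, hfix h hh]⟩
  have horb : MulAction.orbit N H1 = {H : Subgroup G | Nat.card H = m ∧
      H.map (QuotientGroup.mk' N) = H1.map (QuotientGroup.mk' N)} := by
    ext H
    constructor
    · rintro ⟨x, rfl⟩
      refine ⟨?_, ?_⟩
      · show Nat.card (MulAut.conj (x : G) • H1 : Subgroup G) = m
        rw [card_conj_smul, hH1]
      · show (MulAut.conj (x : G) • H1 : Subgroup G).map (QuotientGroup.mk' N) = _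
        rw [map_conj_smul]
        have : (QuotientGroup.mk' N) (x : G) = 1 := (QuotientGroup.eq_one_iff _).mpr x.2
        rw [this, map_one, one_smul]
    · rintro ⟨hHc, hHm⟩
      have hU := sup_eq_of_map_eq hHm
      obtain ⟨U, hUdef⟩ : ∃ U : Subgroup G, U = H1 ⊔ N := ⟨_, rfl⟩
      have hH1U : H1 ≤ U := by rw [hUdef]; exact le_sup_left
      have hNU : N ≤ U := by rw [hUdef]; exact le_sup_right
      have hHU : H ≤ U := by rw [hUdef, ← hU]; exact le_sup_left
      haveI hN'n : (N.subgroupOf U).Normal := Subgroup.Normal.subgroupOf hNn U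
      have hN'card : Nat.card (N.subgroupOf U) = Nat.card N := card_subgroupOf_of_le hNU
      have hN'idx : (N.subgroupOf U).index = m := by
        change N.relIndex U = _
        rw [hUdef, Subgroup.relIndex_sup_right, ← Subgroup.inf_relIndex_right, hdisj H1 hH1,
          Subgroup.relIndex_bot_left, hH1]
      have hN'sol : Group.IsSolvable (N.subgroupOf U) :=
        Group.isSolvable_of_isSolvable_injective
          (f := (Subgroup.subgroupOfEquivOfLe hNU).toMonoidHom)
          (Subgroup.subgroupOfEquivOfLe hNU).injective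
      obtain ⟨u, hu⟩ := conj_of_card (N.subgroupOf U) (by rw [hN'card, hN'idx]; exact hNm)
        (Or.inl hN'sol) (H1.subgroupOf U) (H.subgroupOf U)
        (by rw [card_subgroupOf_of_le hH1U, hN'idx, hH1])
        (by rw [card_subgroupOf_of_le hHU, hN'idx, hHc])
      have hfin := conj_of_subgroupOf hH1U hHU u hu
      have hu' : (u : G) ∈ (N : Set G) * (H1 : Set G) := by
        rw [← Subgroup.normal_mul, sup_comm, ← hUdef]
        exact u.2
      obtain ⟨x, hx, h, hh, hxh⟩ := Set.mem_mul.mp hu'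
      refine ⟨⟨x, hx⟩, ?_⟩
      show MulAut.conj x • H1 = H
      rw [← hfin, ← hxh, map_mul, mul_smul, Subgroup.conj_smul_eq_self_of_mem hh]
  rw [cN, Subgroup.relIndex, ← hstab, h1, horb, ← Nat.card_coe_set_eq]
  rfl

/-- The property required of each factor of the number of Hall subgroups. -/
def Good (G : Type u) [Group G] (m f : ℕ) : Prop :=
  (∃ q e : ℕ, q.Prime ∧ f = q ^ e) ∧
  (∃ K L : Subgroup G, K.Normal ∧ L.Normal ∧ K < L ∧
    (∀ M : Subgroup G, M.Normal → K ≤ M → M ≤ L → M = K ∨ M = L) ∧ f ∣ K.relIndex L) ∧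
  (∃ q : ℕ, q.Prime ∧ q ∣ m ∧ f ≡ 1 [MOD q])

/-- Lifting the property from a quotient. -/
lemma good_lift (N : Subgroup G) [N.Normal] (m' m : ℕ) (hdvd : m' ∣ m) (f : ℕ)
    (h : Good (G ⧸ N) m' f) : Good G m f := by
  obtain ⟨h1, ⟨K, L, hK, hL, hKL, hmin, hf⟩, ⟨q, hq, hqm, hmod⟩⟩ := h
  have hsurj := QuotientGroup.mk'_surjective N
  refine ⟨h1, ⟨K.comap (QuotientGroup.mk' N), L.comap (QuotientGroup.mk' N), hK.comap _,
    hL.comap _, (Subgroup.comap_lt_comap_of_surjective hsurj).mpr hKL, ?_, ?_⟩,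
    ⟨q, hq, hqm.trans hdvd, hmod⟩⟩
  · intro M hM hKM hML
    have hNM : N ≤ M := (le_comap_mk N K).trans hKM
    have hcm : (M.map (QuotientGroup.mk' N)).comap (QuotientGroup.mk' N) = M := by
      rw [Subgroup.comap_map_eq, QuotientGroup.ker_mk', sup_eq_left.mpr hNM]
    have h1 : K ≤ M.map (QuotientGroup.mk' N) := by
      have := Subgroup.map_mono (f := QuotientGroup.mk' N) hKM
      rwa [Subgroup.map_comap_eq_self_of_surjective hsurj] at this
    have h2 : M.map (QuotientGroup.mk' N) ≤ L := by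
      have := Subgroup.map_mono (f := QuotientGroup.mk' N) hML
      rwa [Subgroup.map_comap_eq_self_of_surjective hsurj] at this
    rcases hmin _ (hM.map _ hsurj) h1 h2 with h | h
    · left; rw [← hcm, h]
    · right; rw [← hcm, h]
  · rw [Subgroup.relIndex_comap, Subgroup.map_comap_eq_self_of_surjective hsurj]
    exact hf

/-- The fibres of reduction modulo `N` on the subgroups of order `m` all have the same size. -/
lemma fiber_card [Finite G] [Group.IsSolvable G] (N : Subgroup G) [hNn : N.Normal]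
    (m n' : ℕ) (hGq : Nat.card (G ⧸ N) = m * n') (hmn' : m.Coprime n')
    (hNm : (Nat.card N).Coprime m) (H0 : Subgroup G) (hH0 : Nat.card H0 = m)
    (Hb : Subgroup (G ⧸ N)) (hHb : Nat.card Hb = m) :
    Nat.card {H : Subgroup G // Nat.card H = m ∧ H.map (QuotientGroup.mk' N) = Hb} =
      cN N H0 := by
  have hdisj : N ⊓ H0 = ⊥ :=
    disjoint_iff.mp (Subgroup.disjoint_of_coprime_natCard (by rw [hH0]; exact hNm))
  obtain ⟨gb, hgb⟩ := hall_conj m n' hGq hmn' (H0.map (QuotientGroup.mk' N)) Hb
    (by rw [card_map_mk_of_disjoint hdisj, hH0]) hHb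
  obtain ⟨g, rfl⟩ := QuotientGroup.mk'_surjective N gb
  rw [← map_conj_smul] at hgb
  rw [← hgb, fiber_card_aux N inferInstance m hNm (MulAut.conj g • H0)
    (by rw [card_conj_smul, hH0]), cN_conj]

/-- **P. Hall's theorem on the number of Hall subgroups**, list form. -/
theorem count_main : ∀ k : ℕ, ∀ (G : Type u) [Group G] [Finite G] [Group.IsSolvable G],
    Nat.card G = k → ∀ m n : ℕ, Nat.card G = m * n → m.Coprime n →
    ∃ l : List ℕ, Nat.card {H : Subgroup G // Nat.card H = m} = l.prod ∧
      ∀ f ∈ l, Good G m f := by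
  intro k
  induction k using Nat.strong_induction_on with
  | _ k ih =>
  intro G _ _ _ hk m n hG hmn
  rcases subsingleton_or_nontrivial G with hsub | hnt
  · refine ⟨[], ?_, fun f hf => absurd hf List.not_mem_nil⟩
    rw [List.prod_nil]
    have hG1 : Nat.card G = 1 := Nat.card_of_subsingleton 1
    have hm1 : m = 1 := Nat.dvd_one.mp ⟨n, by rw [← hG, hG1]⟩
    apply Nat.card_eq_one_iff_unique.mpr
    refine ⟨⟨fun a b => Subtype.ext (Subgroup.ext (fun x => ?_))⟩, ⟨⟨⊥, by
      rw [Subgroup.card_bot, hm1]⟩⟩⟩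
    rw [Subsingleton.elim x 1]
    exact ⟨fun _ => b.1.one_mem, fun _ => a.1.one_mem⟩
  · obtain ⟨N, hNn, hN1, hNmin⟩ := Cfsg.Agent.Helper11.exists_min_normal G
    haveI := hNn
    obtain ⟨q, hq, hNq⟩ := Cfsg.Agent.Helper4.isPGroup_of_min_normal N hN1 hNmin
    haveI : Fact q.Prime := ⟨hq⟩
    obtain ⟨a, ha⟩ := (IsPGroup.iff_card (p := q) (G := N)).mp hNq
    have ha0 : a ≠ 0 := by
      rintro rfl
      rw [pow_zero] at ha
      exact hN1 ((Subgroup.card_eq_one).mp ha)
    have hNdvd : Nat.card N ∣ m * n := by rw [← hG]; exact Subgroup.card_subgroup_dvd_card N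
    have hqG : q ∣ m * n := (dvd_pow_self q ha0).trans (by rw [← ha]; exact hNdvd)
    have hNpos : 0 < Nat.card N := Nat.card_pos
    have hquot : Nat.card G = Nat.card (G ⧸ N) * Nat.card N :=
      Subgroup.card_eq_card_quotient_mul_card_subgroup N
    have hlt : Nat.card (G ⧸ N) < Nat.card G := card_quotient_lt hN1
    have hsurj := QuotientGroup.mk'_surjective N
    rcases (Nat.Prime.dvd_mul hq).mp hqG with hqm | hqn
    · -- the case where `N` lies in every subgroup of order `m`
      have hqn : Nat.Coprime q n := Nat.Coprime.coprime_dvd_left hqm hmn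
      have hNcop : (Nat.card N).Coprime n := by rw [ha]; exact Nat.Coprime.pow_left a hqn
      obtain ⟨H0, hH0, hNH0⟩ := hall_contain m n hG hmn N hNcop
      have hNle : ∀ H : Subgroup G, Nat.card H = m → N ≤ H := by
        intro H hH
        obtain ⟨g, hg⟩ := hall_conj m n hG hmn H0 H hH0 hH
        have := (Subgroup.pointwise_smul_le_pointwise_smul_iff (a := MulAut.conj g)).mpr hNH0
        rw [Subgroup.Normal.conj_smul_eq_self g N, hg] at this
        exact this
      obtain ⟨m', hm'⟩ : Nat.card N ∣ m := by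
        rw [← hH0]; exact Subgroup.card_dvd_of_le hNH0
      have hGq : Nat.card (G ⧸ N) = m' * n := by
        apply Nat.eq_of_mul_eq_mul_right hNpos
        rw [← hquot, hG, hm']
        ring
      have hcop' : m'.Coprime n := Nat.Coprime.coprime_dvd_left (Dvd.intro_left _ hm'.symm) hmn
      obtain ⟨l, hl, hl'⟩ := ih (Nat.card (G ⧸ N)) (by rw [← hk]; exact hlt) (G ⧸ N) rfl m' n
        hGq hcop'
      have hcardmap : ∀ H : Subgroup G, Nat.card H = m →
          Nat.card (H.map (QuotientGroup.mk' N)) = m' := by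
        intro H hH
        apply Nat.eq_of_mul_eq_mul_right hNpos
        rw [card_map_mk_mul_card (hNle H hH), hH, hm', mul_comm]
      have hcardcomap : ∀ Hb : Subgroup (G ⧸ N), Nat.card Hb = m' →
          Nat.card (Hb.comap (QuotientGroup.mk' N)) = m := by
        intro Hb hHb
        have := card_map_mk_mul_card (le_comap_mk N Hb)
        rw [Subgroup.map_comap_eq_self_of_surjective hsurj, hHb] at this
        rw [← this, hm', mul_comm]
      have e : {H : Subgroup G // Nat.card H = m} ≃
          {H : Subgroup (G ⧸ N) // Nat.card H = m'} :=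
        { toFun := fun H => ⟨H.1.map (QuotientGroup.mk' N), hcardmap H.1 H.2⟩
          invFun := fun Hb => ⟨Hb.1.comap (QuotientGroup.mk' N), hcardcomap Hb.1 Hb.2⟩
          left_inv := fun H => Subtype.ext (by
            show (H.1.map (QuotientGroup.mk' N)).comap (QuotientGroup.mk' N) = H.1
            rw [Subgroup.comap_map_eq, QuotientGroup.ker_mk', sup_eq_left.mpr (hNle H.1 H.2)])
          right_inv := fun Hb => Subtype.ext (by
            show (Hb.1.comap (QuotientGroup.mk' N)).map (QuotientGroup.mk' N) = Hb.1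
            rw [Subgroup.map_comap_eq_self_of_surjective hsurj]) }
      refine ⟨l, by rw [Nat.card_congr e, hl], fun f hf =>
        good_lift N m' m (Dvd.intro_left _ hm'.symm) f (hl' f hf)⟩
    · -- the case where `N` has order prime to `m`
      have hqm : Nat.Coprime q m := (Nat.Coprime.coprime_dvd_left hqn hmn.symm)
      have hNm : (Nat.card N).Coprime m := by rw [ha]; exact Nat.Coprime.pow_left a hqm
      obtain ⟨n', hn'⟩ : Nat.card N ∣ n := Nat.Coprime.dvd_of_dvd_mul_left hNm hNdvd
      have hGq : Nat.card (G ⧸ N) = m * n' := by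
        apply Nat.eq_of_mul_eq_mul_right hNpos
        rw [← hquot, hG, hn']
        ring
      have hcop' : m.Coprime n' := Nat.Coprime.coprime_dvd_right (Dvd.intro_left _ hn'.symm) hmn
      obtain ⟨l, hl, hl'⟩ := ih (Nat.card (G ⧸ N)) (by rw [← hk]; exact hlt) (G ⧸ N) rfl m n'
        hGq hcop'
      obtain ⟨H0, hH0, -⟩ := hall_contain m n hG hmn ⊥
        (by rw [Subgroup.card_bot]; exact Nat.coprime_one_left n)
      obtain ⟨lc, hlc, hlc'⟩ := good_cN q hq N hNq (Nat.card H0) H0 rfl
        (by rw [hH0]; exact hqm.symm)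
      have hdisj : ∀ H : Subgroup G, Nat.card H = m → N ⊓ H = ⊥ := fun H hH =>
        disjoint_iff.mp (Subgroup.disjoint_of_coprime_natCard (by rw [hH]; exact hNm))
      -- the reduction map
      obtain ⟨φ, hφ⟩ : ∃ φ : {H : Subgroup G // Nat.card H = m} →
          {H : Subgroup (G ⧸ N) // Nat.card H = m},
          ∀ H, (φ H).1 = H.1.map (QuotientGroup.mk' N) :=
        ⟨fun H => ⟨H.1.map (QuotientGroup.mk' N), by
          rw [card_map_mk_of_disjoint (hdisj H.1 H.2)]; exact H.2⟩, fun _ => rfl⟩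
      haveI : Fintype {H : Subgroup (G ⧸ N) // Nat.card H = m} := Fintype.ofFinite _
      have hfib : ∀ y : {H : Subgroup (G ⧸ N) // Nat.card H = m},
          Nat.card {x : {H : Subgroup G // Nat.card H = m} // φ x = y} = cN N H0 := by
        intro y
        rw [← fiber_card N m n' hGq hcop' hNm H0 hH0 y.1 y.2]
        refine Nat.card_congr (((Equiv.subtypeEquivRight (fun x => ?_)).trans
          (Equiv.subtypeSubtypeEquivSubtypeInter (fun H : Subgroup G => Nat.card H = m)
            (fun H : Subgroup G => H.map (QuotientGroup.mk' N) = y.1))))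
        rw [Subtype.ext_iff, hφ]
      have htotal : Nat.card {H : Subgroup G // Nat.card H = m} =
          Nat.card {H : Subgroup (G ⧸ N) // Nat.card H = m} * cN N H0 := by
        rw [Nat.card_congr (Equiv.sigmaFiberEquiv φ).symm, Nat.card_sigma,
          Finset.sum_congr rfl (fun y _ => hfib y), Finset.sum_const, Finset.card_univ,
          smul_eq_mul, Nat.card_eq_fintype_card]
      refine ⟨l ++ lc, by rw [htotal, hl, List.prod_append, hlc], fun f hf => ?_⟩
      rcases List.mem_append.mp hf with hf | hf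
      · exact good_lift N m m dvd_rfl f (hl' f hf)
      · obtain ⟨⟨e, he⟩, hfd, p, hp, hpd, hmod⟩ := hlc' f hf
        refine ⟨⟨q, e, hq, he⟩, ⟨⊥, N, inferInstance, hNn, bot_lt_iff_ne_bot.mpr hN1,
          fun M hM _ hML => hNmin M hM hML, ?_⟩, ⟨p, hp, by rw [← hH0]; exact hpd, hmod⟩⟩
        rw [Subgroup.relIndex_bot_left]
        exact hfd

end Cfsg.Agent.Helper23.HallCount
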