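import Mathlib

set_option autoImplicit false

namespace Cfsg.Agent.Helper23

universe u

theorem add_card_ker_mul_card_range {V W : Type*} [AddGroup V] [AddGroup W] (f : V →+ W) :
    Nat.card f.ker * Nat.card f.range = Nat.card V := by
  have h2 : Nat.card (V ⧸ f.ker) = Nat.card f.range :=
    Nat.card_congr (QuotientAddGroup.quotientKerEquivRange f).toEquiv
  rw [← h2, ← AddSubgroup.index_eq_card, AddSubgroup.card_mul_index]

/-- A finite elementary abelian `r`-group (`r` odd) carrying operators `a, b` with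
`a² = b² = -1`, `aba = b` has square order. -/
theorem isSquare_card_elem {V : Type*} [AddCommGroup V] [Finite V] (r : ℕ) [Fact r.Prime]
    (hodd : Odd (Nat.card V)) (hr : ∀ v : V, r • v = 0) (a b : V →+ V)
    (ha : ∀ v, a (a v) = -v) (hb : ∀ v, b (b v) = -v) (hab : ∀ v, a (b (a v)) = b v) :
    IsSquare (Nat.card V) := by
  obtain ⟨X, Y, -, -, hXY⟩ := Nat.sq_add_sq_modEq r (r - 1)
  have hr1 : 1 ≤ r := (Fact.out : r.Prime).pos
  have hdvd : r ∣ X ^ 2 + Y ^ 2 + 1 := by
    have h1 : X ^ 2 + Y ^ 2 + 1 ≡ (r - 1) + 1 [MOD r] := Nat.ModEq.add_right 1 hXY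
    have h2 : r - 1 + 1 = r := by omega
    rw [h2] at h1
    exact (Nat.modEq_zero_iff_dvd).mp (h1.trans (by simp [Nat.ModEq]))
  obtain ⟨q, hq⟩ := hdvd
  have h3 : ∀ v : V, (X ^ 2 + Y ^ 2 + 1) • v = 0 := by
    intro v; rw [hq, mul_comm, mul_smul, hr, smul_zero]
  have hba : ∀ v, b (a v) = - a (b v) := by
    intro v
    have := hab (a v)
    rw [ha, map_neg, map_neg] at this
    rw [← this]
  obtain ⟨U, hU⟩ : ∃ U : V →+ V, ∀ v, U v = X • a v + Y • b v :=
    ⟨X • a + Y • b, fun v => rfl⟩
  have hUU : ∀ v, U (U v) = v := by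
    intro v
    rw [hU, hU, map_add, map_add, map_nsmul, map_nsmul, map_nsmul, map_nsmul, ha, hb, hba v]
    have : X • (X • -v + Y • a (b v)) + Y • (X • -(a (b v)) + Y • -v) =
        v - (X ^ 2 + Y ^ 2 + 1) • v := by module
    rw [this, h3, sub_zero]
  have hUW : ∀ v, U (a (b v)) = - a (b (U v)) := by
    intro v
    rw [hU, hU, ha, map_add, map_add, map_nsmul, map_nsmul, map_nsmul, map_nsmul, hab, hb,
      hba (b v), hb, map_neg, neg_neg]
    module
  have hWW : ∀ v, a (b (a (b v))) = -v := by intro v; rw [hab, hb]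
  obtain ⟨φ, hφ⟩ : ∃ φ : V →+ V, ∀ v, φ v = U v - v :=
    ⟨U - AddMonoidHom.id V, fun v => rfl⟩
  have hker : ∀ v, v ∈ φ.ker ↔ U v = v := by
    intro v; rw [AddMonoidHom.mem_ker, hφ, sub_eq_zero]
  have hrange : ∀ v, v ∈ φ.range ↔ U v = -v := by
    intro v
    constructor
    · rintro ⟨w, rfl⟩
      rw [hφ, map_sub, hUU]; abel
    · intro hv
      obtain ⟨m, hm⟩ := hodd
      refine ⟨-((m + 1) • v), ?_⟩
      rw [hφ, map_neg, map_nsmul, hv]
      have h4 : (2 * m + 1) • v = 0 := by rw [← hm]; exact card_nsmul_eq_zero'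
      have : -((m + 1) • -v) - -((m + 1) • v) = v + (2 * m + 1) • v := by module
      rw [this, h4, add_zero]
  have hcard : Nat.card φ.ker = Nat.card φ.range := by
    apply Nat.card_congr
    exact
      { toFun := fun v => ⟨a (b v.1), (hrange _).mpr (by rw [hUW, (hker v.1).mp v.2])⟩
        invFun := fun v => ⟨-(a (b v.1)), (hker _).mpr (by
          rw [map_neg, hUW, (hrange v.1).mp v.2, map_neg, map_neg, neg_neg])⟩
        left_inv := fun v => by
          apply Subtype.ext
          show -(a (b (a (b v.1)))) = v.1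
          rw [hWW, neg_neg]
        right_inv := fun v => by
          apply Subtype.ext
          show a (b (-(a (b v.1)))) = v.1
          rw [map_neg, map_neg, hWW, neg_neg] }
  rw [← add_card_ker_mul_card_range φ, hcard]
  exact ⟨_, rfl⟩

/-- A finite abelian group of odd order carrying operators `a, b` with `a² = b² = -1`,
`aba = b` (a fixed-point-free action of the quaternion group) has square order. -/
theorem isSquare_card_quat (n : ℕ) : ∀ (V : Type u) [AddCommGroup V] [Finite V],
    Nat.card V = n → Odd (Nat.card V) → ∀ (a b : V →+ V), (∀ v, a (a v) = -v) →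
    (∀ v, b (b v) = -v) → (∀ v, a (b (a v)) = b v) → IsSquare (Nat.card V) := by
  induction n using Nat.strong_induction_on with
  | _ n IH =>
    intro V _ _ hn hodd a b ha hb hab
    by_cases h1 : Nat.card V = 1
    · rw [h1]; exact ⟨1, rfl⟩
    obtain ⟨r, hr, hrdvd⟩ : ∃ r, r.Prime ∧ r ∣ Nat.card V :=
      ⟨_, Nat.minFac_prime h1, Nat.minFac_dvd _⟩
    haveI : Fact r.Prime := ⟨hr⟩
    obtain ⟨π, hπ⟩ : ∃ π : V →+ V, ∀ v, π v = r • v := ⟨nsmulAddMonoidHom r, fun v => rfl⟩
    have haker : ∀ v : π.ker, a v.1 ∈ π.ker := by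
      intro v
      have hv := v.2
      rw [AddMonoidHom.mem_ker, hπ] at hv ⊢
      rw [← map_nsmul, hv, map_zero]
    have hbker : ∀ v : π.ker, b v.1 ∈ π.ker := by
      intro v
      have hv := v.2
      rw [AddMonoidHom.mem_ker, hπ] at hv ⊢
      rw [← map_nsmul, hv, map_zero]
    have harange : ∀ v : π.range, a v.1 ∈ π.range := by
      rintro ⟨_, ⟨w, rfl⟩⟩
      exact ⟨a w, show π (a w) = a (π w) by rw [hπ, hπ, map_nsmul]⟩
    have hbrange : ∀ v : π.range, b v.1 ∈ π.range := by
      rintro ⟨_, ⟨w, rfl⟩⟩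
      exact ⟨b w, show π (b w) = b (π w) by rw [hπ, hπ, map_nsmul]⟩
    have hmul := add_card_ker_mul_card_range π
    have hkerne : 2 ≤ Nat.card π.ker := by
      obtain ⟨v, hv⟩ := exists_prime_addOrderOf_dvd_card' r hrdvd
      have hvk : v ∈ π.ker := by
        rw [AddMonoidHom.mem_ker, hπ, ← hv]; exact addOrderOf_nsmul_eq_zero v
      have hne : π.ker ≠ ⊥ := by
        intro h
        rw [h, AddSubgroup.mem_bot] at hvk
        rw [hvk, addOrderOf_zero] at hv
        exact hr.one_lt.ne hv
      have h0 : 0 < Nat.card π.ker := Nat.card_pos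
      have h1' : Nat.card π.ker ≠ 1 := fun h => hne (AddSubgroup.card_eq_one.mp h)
      omega
    have hrpos : 0 < Nat.card π.range := Nat.card_pos
    have hlt : Nat.card π.range < n := by
      rw [← hn, ← hmul]; nlinarith
    have hoddR : Odd (Nat.card π.range) := Odd.of_dvd_nat hodd ⟨_, (by rw [mul_comm]; exact hmul.symm)⟩
    have hoddK : Odd (Nat.card π.ker) := Odd.of_dvd_nat hodd ⟨_, hmul.symm⟩
    have hR := IH _ hlt π.range rfl hoddR
      ((a.comp π.range.subtype).codRestrict π.range harange)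
      ((b.comp π.range.subtype).codRestrict π.range hbrange)
      (fun v => Subtype.ext (ha v.1)) (fun v => Subtype.ext (hb v.1))
      (fun v => Subtype.ext (hab v.1))
    have hK := isSquare_card_elem r hoddK
      (fun v : π.ker => Subtype.ext (by
        have hv := v.2
        rw [AddMonoidHom.mem_ker, hπ] at hv
        exact hv))
      ((a.comp π.ker.subtype).codRestrict π.ker haker)
      ((b.comp π.ker.subtype).codRestrict π.ker hbker)
      (fun v => Subtype.ext (ha v.1)) (fun v => Subtype.ext (hb v.1))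
      (fun v => Subtype.ext (hab v.1))
    rw [← hmul]
    exact hK.mul hR

end Cfsg.Agent.Helper23
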