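import Mathlib

set_option autoImplicit false

namespace Cfsg.Agent.Helper23.TwoTrAut

open scoped Matrix

/-- number-theoretic core of the two-transitive automorphism argument -/
theorem nt_core (n a m : ℕ) (x y c : ℤ) (hn : 2 ≤ n) (ha1 : 1 ≤ a) (han : a ≤ n - 1)
    (hcop : Nat.Coprime a n) (hm : Odd m)
    (hc : c * ((n : ℤ) - 1) = a * ((n : ℤ) - a)) (hx : x ^ 2 = c ^ m)
    (hxy : x + y * n = (a : ℤ) ^ m) :
    a = 1 ∨ a = n - 1 := by
  obtain ⟨k, rfl⟩ := hm
  have hn' : (2 : ℤ) ≤ n := by exact_mod_cast hn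
  have ha1' : (1 : ℤ) ≤ a := by exact_mod_cast ha1
  have han' : (a : ℤ) ≤ n - 1 := by omega
  have hcpos : 0 < c := by
    by_contra hneg
    push Not at hneg
    have h1 : c * ((n : ℤ) - 1) ≤ 0 := mul_nonpos_of_nonpos_of_nonneg hneg (by linarith)
    have h2 : 0 < (a : ℤ) * ((n : ℤ) - a) := mul_pos (by linarith) (by linarith)
    linarith
  have hdvd : c ^ k ∣ x := by
    have h1 : (c ^ k) ^ 2 ∣ x ^ 2 := by
      rw [hx]; exact ⟨c, by ring⟩
    exact (Int.pow_dvd_pow_iff (by norm_num)).1 h1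
  obtain ⟨t, rfl⟩ := hdvd
  have hck : c ^ k ≠ 0 := pow_ne_zero _ hcpos.ne'
  have ht : t ^ 2 = c := by
    have h1 : (c ^ k) ^ 2 * t ^ 2 = (c ^ k) ^ 2 * c := by
      have h2 : (c ^ k * t) ^ 2 = c ^ (2 * k + 1) := hx
      rw [mul_pow] at h2; rw [h2]; ring
    exact mul_left_cancel₀ (pow_ne_zero 2 hck) h1
  subst ht
  have ht0 : t ≠ 0 := by
    rintro rfl
    simp at hcpos
  have hc' : t ^ 2 * ((n : ℤ) - 1) = a * ((n : ℤ) - a) := hc
  have hxy' : t ^ (2 * k + 1) + y * n = (a : ℤ) ^ (2 * k + 1) := by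
    rw [← hxy]; ring
  -- n ∣ a - t
  have h1 : (n : ℤ) ∣ (a : ℤ) ^ 2 - t ^ 2 := ⟨a - t ^ 2, by linear_combination hc'⟩
  have h2 : (n : ℤ) ∣ ((a : ℤ) ^ 2) ^ k - (t ^ 2) ^ k := dvd_trans h1 (sub_dvd_pow_sub_pow _ _ k)
  have h3 : (n : ℤ) ∣ (a : ℤ) ^ (2 * k + 1) - t ^ (2 * k + 1) := ⟨y, by linear_combination -hxy'⟩
  have h4 : (n : ℤ) ∣ ((a : ℤ) - t) * ((a : ℤ) ^ 2) ^ k := by
    have e : ((a : ℤ) - t) * ((a : ℤ) ^ 2) ^ k
        = ((a : ℤ) ^ (2 * k + 1) - t ^ (2 * k + 1)) - t * (((a : ℤ) ^ 2) ^ k - (t ^ 2) ^ k) := by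
      ring
    rw [e]
    exact dvd_sub h3 (dvd_mul_of_dvd_right h2 t)
  have hcop' : IsCoprime (n : ℤ) (((a : ℤ) ^ 2) ^ k) := by
    have : IsCoprime (a : ℤ) (n : ℤ) := Nat.isCoprime_iff_coprime.2 hcop
    exact (this.symm.pow_right).pow_right
  have h5 : (n : ℤ) ∣ (a : ℤ) - t := hcop'.dvd_of_dvd_mul_right h4
  -- bounds
  have hb1 : t ^ 2 ≤ a := by
    have : t ^ 2 * ((n : ℤ) - 1) ≤ a * ((n : ℤ) - 1) := by
      rw [hc']; exact mul_le_mul_of_nonneg_left (by linarith) (by linarith)
    exact le_of_mul_le_mul_right this (by linarith)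
  have hb2 : t ^ 2 ≤ (n : ℤ) - a := by
    have : t ^ 2 * ((n : ℤ) - 1) ≤ ((n : ℤ) - a) * ((n : ℤ) - 1) := by
      rw [hc', mul_comm]; exact mul_le_mul_of_nonneg_left han' (by linarith)
    exact le_of_mul_le_mul_right this (by linarith)
  rcases lt_or_gt_of_ne ht0 with hneg | hpos
  · -- t < 0
    right
    have hs : -t ≤ t ^ 2 := by nlinarith
    obtain ⟨j, hj⟩ := h5
    have hj1 : 1 ≤ j := by
      by_contra hcon
      push Not at hcon
      have : (n : ℤ) * j ≤ 0 := mul_nonpos_of_nonneg_of_nonpos (by linarith) (by linarith)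
      linarith
    have hj2 : j ≤ 1 := by
      by_contra hcon
      push Not at hcon
      have : (n : ℤ) * 2 ≤ n * j := mul_le_mul_of_nonneg_left (by linarith) (by linarith)
      linarith
    have hj3 : j = 1 := le_antisymm hj2 hj1
    subst hj3
    have hat : (a : ℤ) = n + t := by linarith
    have h6 : t * (t * ((n : ℤ) - 1) + a) = 0 := by
      have : (a : ℤ) * ((n : ℤ) - a) = a * (-t) := by rw [hat]; ring
      rw [this] at hc'
      linear_combination hc'
    have h7 : t * ((n : ℤ) - 1) + a = 0 := by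
      rcases mul_eq_zero.1 h6 with h | h
      · exact absurd h ht0
      · exact h
    have h8 : (n : ℤ) * (t + 1) = 0 := by rw [hat] at h7; linear_combination h7
    have h9 : t + 1 = 0 := by
      rcases mul_eq_zero.1 h8 with h | h
      · linarith
      · exact h
    omega
  · -- t > 0
    left
    have hs : t ≤ t ^ 2 := by nlinarith
    have h6 : (a : ℤ) - t = 0 :=
      Int.eq_zero_of_dvd_of_nonneg_of_lt (by linarith) (by linarith) h5
    have hat : (a : ℤ) = t := by linarith
    have h7 : t * (t * ((n : ℤ) - 1) - ((n : ℤ) - t)) = 0 := by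
      rw [hat] at hc'
      linear_combination hc'
    have h8 : t * ((n : ℤ) - 1) - ((n : ℤ) - t) = 0 := by
      rcases mul_eq_zero.1 h7 with h | h
      · exact absurd h ht0
      · exact h
    have h9 : (n : ℤ) * (t - 1) = 0 := by linear_combination h8
    have h10 : t - 1 = 0 := by
      rcases mul_eq_zero.1 h9 with h | h
      · linarith
      · exact h
    omega

variable {Ω : Type*} [Fintype Ω]

/-- the all-ones matrix -/
def jm (Ω : Type*) : Matrix Ω Ω ℤ := Matrix.of fun _ _ => 1

omit [Fintype Ω] in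
theorem jm_apply (p q : Ω) : jm Ω p q = 1 := rfl

/-- an automorphism mapping a point stabilizer of a transitive group onto a point stabilizer
is induced by a permutation -/
theorem perm_of_stab (G : Subgroup (Equiv.Perm Ω)) [MulAction.IsPretransitive G Ω]
    (α : MulAut G) (o ω' : Ω)
    (hst : (MulAction.stabilizer G o).map α.toMonoidHom = MulAction.stabilizer G ω') :
    ∃ σ : Equiv.Perm Ω, σ ∈ Subgroup.normalizer (G : Set (Equiv.Perm Ω)) ∧
      ∀ g : G, ((α g : G) : Equiv.Perm Ω) = σ * (g : Equiv.Perm Ω) * σ⁻¹ := by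
  classical
  have hex : ∀ p : Ω, ∃ g : G, g • o = p := fun p => MulAction.exists_smul_eq G o p
  choose gp hgp using hex
  let f : Ω → Ω := fun p => α (gp p) • ω'
  have hmem : ∀ h : G, h • o = o → α h • ω' = ω' := by
    intro h hh
    have h1 : α h ∈ (MulAction.stabilizer G o).map α.toMonoidHom :=
      Subgroup.mem_map.2 ⟨h, MulAction.mem_stabilizer_iff.2 hh, rfl⟩
    rw [hst] at h1
    exact MulAction.mem_stabilizer_iff.1 h1
  have hmem' : ∀ h : G, α h • ω' = ω' → h • o = o := by
    intro h hh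
    have h1 : α h ∈ MulAction.stabilizer G ω' := MulAction.mem_stabilizer_iff.2 hh
    rw [← hst] at h1
    obtain ⟨h', hh', e⟩ := Subgroup.mem_map.1 h1
    have h2 : h' = h := α.injective e
    subst h2
    exact MulAction.mem_stabilizer_iff.1 hh'
  have hf : ∀ (g : G) (p : Ω), f (g • p) = α g • f p := by
    intro g p
    have h1 : ((g * gp p)⁻¹ * gp (g • p)) • o = o := by
      rw [mul_smul, hgp, inv_smul_eq_iff, mul_smul, hgp]
    have h2 := hmem _ h1
    rw [map_mul, map_inv, mul_smul, inv_smul_eq_iff, map_mul, mul_smul] at h2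
    exact h2
  have hinj : Function.Injective f := by
    intro p p' hpp
    have h1 : α ((gp p)⁻¹ * gp p') • ω' = ω' := by
      rw [map_mul, map_inv, mul_smul, inv_smul_eq_iff]; exact hpp.symm
    have h2 := hmem' _ h1
    rw [mul_smul, inv_smul_eq_iff, hgp, hgp] at h2
    exact h2.symm
  let σ : Equiv.Perm Ω := Equiv.ofBijective f (Finite.injective_iff_bijective.1 hinj)
  have hσ : ∀ (g : G) (p : Ω), σ ((g : Equiv.Perm Ω) p) = (α g : Equiv.Perm Ω) (σ p) := hf
  have hconj : ∀ g : G, ((α g : G) : Equiv.Perm Ω) = σ * (g : Equiv.Perm Ω) * σ⁻¹ := by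
    intro g
    ext p
    have h1 := hσ g (σ⁻¹ p)
    simp only [Equiv.Perm.coe_mul, Function.comp_apply]
    rw [h1]
    simp
  refine ⟨σ, ?_, hconj⟩
  rw [Subgroup.mem_set_normalizer_iff]
  intro h
  constructor
  · intro hh
    have h1 := hconj ⟨h, hh⟩
    have h2 : σ * h * σ⁻¹ = ((α ⟨h, hh⟩ : G) : Equiv.Perm Ω) := h1.symm
    rw [SetLike.mem_coe, h2]; exact (α ⟨h, hh⟩).2
  · intro hh
    have h1 := hconj (α.symm ⟨_, hh⟩)
    rw [MulEquiv.apply_symm_apply] at h1
    have e : h = ((α.symm ⟨_, hh⟩ : G) : Equiv.Perm Ω) :=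
      mul_left_cancel (mul_right_cancel h1)
    rw [SetLike.mem_coe, e]; exact (α.symm ⟨_, hh⟩).2

/-- the orbit-length statement -/
theorem orbit_card (G : Subgroup (Equiv.Perm Ω)) (h2 : MulAction.IsMultiplyPretransitive G Ω 2)
    (o : Ω) (α : MulAut G) (hα : Odd (orderOf α)) (ω : Ω)
    (hk : (Nat.card (MulAction.orbit ((MulAction.stabilizer G o).map α.toMonoidHom) ω)).Coprime
      (Fintype.card Ω)) :
    Nat.card (MulAction.orbit ((MulAction.stabilizer G o).map α.toMonoidHom) ω) = 1 ∨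
    Nat.card (MulAction.orbit ((MulAction.stabilizer G o).map α.toMonoidHom) ω)
      = Fintype.card Ω - 1 := by
  classical
  haveI : MulAction.IsPretransitive G Ω := MulAction.isPretransitive_of_is_two_pretransitive
  have h2' : ∀ {a b c d : Ω}, a ≠ b → c ≠ d → ∃ g : G, g • a = c ∧ g • b = d :=
    fun hab hcd => (MulAction.is_two_pretransitive_iff.1 h2) hab hcd
  set K := (MulAction.stabilizer G o).map α.toMonoidHom with hK
  set n := Fintype.card Ω with hn
  have hacard : Nat.card (MulAction.orbit K ω)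
      = (Finset.univ.filter (fun p => p ∈ MulAction.orbit K ω)).card := by
    rw [Nat.card_eq_fintype_card]
    exact Fintype.card_subtype _
  set a := Nat.card (MulAction.orbit K ω) with ha
  have ha1 : 1 ≤ a := by
    rw [hacard]
    exact Finset.card_pos.2 ⟨ω, by simp⟩
  have han : a ≤ n := by
    rw [hacard, hn]
    exact Finset.card_le_univ _
  by_cases hn2 : n < 2
  · left; omega
  push Not at hn2
  have han' : a ≤ n - 1 := by
    have hne : a ≠ n := by
      intro h
      rw [h] at hk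
      have := (Nat.coprime_self n).1 hk
      omega
    omega
  -- the relation and its matrix
  let R : Ω → Ω → Prop := fun p q => ∃ h : G, (α h) • ω = p ∧ h • o = q
  let A : Matrix Ω Ω ℤ := fun p q => if R p q then 1 else 0
  have hR : ∀ (g : G) (p q : Ω), R (α g • p) (g • q) ↔ R p q := by
    intro g p q
    constructor
    · rintro ⟨h, h1, h2⟩
      refine ⟨g⁻¹ * h, ?_, ?_⟩
      · rw [map_mul, map_inv, mul_smul, h1, inv_smul_smul]
      · rw [mul_smul, h2, inv_smul_smul]
    · rintro ⟨h, rfl, rfl⟩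
      exact ⟨g * h, by rw [map_mul, mul_smul], by rw [mul_smul]⟩
  have hA : ∀ (g : G) (p q : Ω), A (α g • p) (g • q) = A p q := by
    intro g p q
    show (if R (α g • p) (g • q) then (1 : ℤ) else 0) = if R p q then 1 else 0
    rw [if_congr (hR g p q) rfl rfl]
  have hRo : ∀ p, R p o ↔ p ∈ MulAction.orbit K ω := by
    intro p
    constructor
    · rintro ⟨h, rfl, h2⟩
      exact ⟨⟨α h, Subgroup.mem_map.2 ⟨h, MulAction.mem_stabilizer_iff.2 h2, rfl⟩⟩, rfl⟩
    · rintro ⟨⟨k, hk⟩, rfl⟩
      obtain ⟨h, hh, rfl⟩ := Subgroup.mem_map.1 hk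
      exact ⟨h, rfl, MulAction.mem_stabilizer_iff.1 hh⟩
  have hcol0 : ∑ p, A p o = (a : ℤ) := by
    have h1 : ∑ p, A p o
        = ((Finset.univ.filter (fun p => p ∈ MulAction.orbit K ω)).card : ℤ) := by
      rw [← Finset.sum_boole]
      exact Finset.sum_congr rfl (fun p _ => if_congr (hRo p) rfl rfl)
    rw [h1, hacard]
  have hcol : ∀ q, ∑ p, A p q = (a : ℤ) := by
    intro q
    obtain ⟨g, rfl⟩ := MulAction.exists_smul_eq G o q
    rw [← hcol0, ← Equiv.sum_comp (MulAction.toPerm (α g))]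
    exact Finset.sum_congr rfl (fun p _ => hA g p o)
  have hrow_eq : ∀ (g : G) (p : Ω), ∑ q, A (α g • p) q = ∑ q, A p q := by
    intro g p
    rw [← Equiv.sum_comp (MulAction.toPerm g)]
    exact Finset.sum_congr rfl (fun q _ => hA g p q)
  have hn0 : (n : ℤ) ≠ 0 := by
    have : n ≠ 0 := by omega
    exact_mod_cast this
  have hrow : ∀ p, ∑ q, A p q = (a : ℤ) := by
    intro p
    have hall : ∀ p', ∑ q, A p' q = ∑ q, A p q := by
      intro p'
      obtain ⟨g, rfl⟩ := MulAction.exists_smul_eq G p p'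
      have h1 := hrow_eq (α.symm g) p
      rwa [MulEquiv.apply_symm_apply] at h1
    have h1 : ∑ p', ∑ q, A p' q = (n : ℤ) * ∑ q, A p q := by
      rw [Finset.sum_congr rfl (fun p' _ => hall p')]
      simp [hn]
    have h2 : ∑ p', ∑ q, A p' q = (n : ℤ) * a := by
      rw [Finset.sum_comm, Finset.sum_congr rfl (fun q _ => hcol q)]
      simp [hn]
    exact mul_left_cancel₀ hn0 (h1.symm.trans h2)
  have hpow : ∀ (k : ℕ) (g : G) (p q : Ω), (A ^ k) ((α ^ k) g • p) (g • q) = (A ^ k) p q := by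
    intro k
    induction k with
    | zero =>
      intro g p q
      simp only [pow_zero, MulAut.one_apply, Matrix.one_apply]
      exact if_congr (smul_left_cancel_iff g) rfl rfl
    | succ k ih =>
      intro g p q
      have eA : A ^ (k + 1) = A ^ k * A := pow_succ A k
      have e : (α ^ (k + 1)) g = (α ^ k) (α g) := by rw [pow_succ, MulAut.mul_apply]
      rw [eA, e, Matrix.mul_apply, Matrix.mul_apply, ← Equiv.sum_comp (MulAction.toPerm (α g))]
      refine Finset.sum_congr rfl (fun r _ => ?_)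
      show (A ^ k) ((α ^ k) (α g) • p) (α g • r) * A (α g • r) (g • q) = _
      rw [ih (α g) p r, hA g r q]
  have hrowpow : ∀ (k : ℕ) (p : Ω), ∑ q, (A ^ k) p q = (a : ℤ) ^ k := by
    intro k
    induction k with
    | zero => intro p; simp [Matrix.one_apply]
    | succ k ih =>
      intro p
      have eA : A ^ (k + 1) = A ^ k * A := pow_succ A k
      rw [eA]
      simp only [Matrix.mul_apply]
      rw [Finset.sum_comm]
      simp only [← Finset.mul_sum, hrow, ← Finset.sum_mul, ih]
      rw [pow_succ]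
  set J : Matrix Ω Ω ℤ := jm Ω with hJ
  have hJa : ∀ p q, J p q = 1 := fun p q => rfl
  have hAkJ : ∀ k : ℕ, A ^ k * J = ((a : ℤ) ^ k) • J := by
    intro k; ext p q
    simp only [Matrix.mul_apply, Matrix.smul_apply, hJa, mul_one, smul_eq_mul]
    exact hrowpow k p
  have hJAk : ∀ k : ℕ, J * (A ^ k)ᵀ = ((a : ℤ) ^ k) • J := by
    intro k; ext p q
    simp only [Matrix.mul_apply, Matrix.smul_apply, Matrix.transpose_apply, hJa, one_mul,
      smul_eq_mul, mul_one]
    exact hrowpow k q
  have hATJ : Aᵀ * J = (a : ℤ) • J := by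
    ext p q
    simp only [Matrix.mul_apply, Matrix.smul_apply, Matrix.transpose_apply, hJa, mul_one,
      smul_eq_mul]
    exact hcol p
  have hJJ : J * J = (n : ℤ) • J := by
    ext p q
    simp only [Matrix.mul_apply, Matrix.smul_apply, hJa, mul_one, smul_eq_mul]
    simp [hn]
  have hB0 : ∀ (h : G) (p p' : Ω), (A * Aᵀ) (α h • p) (α h • p') = (A * Aᵀ) p p' := by
    intro h p p'
    simp only [Matrix.mul_apply, Matrix.transpose_apply]
    rw [← Equiv.sum_comp (MulAction.toPerm h)]
    refine Finset.sum_congr rfl (fun q _ => ?_)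
    show A (α h • p) (h • q) * A (α h • p') (h • q) = _
    rw [hA, hA]
  have hB : ∀ (g : G) (p p' : Ω), (A * Aᵀ) (g • p) (g • p') = (A * Aᵀ) p p' := by
    intro g p p'
    have h1 := hB0 (α.symm g) p p'
    rwa [MulEquiv.apply_symm_apply] at h1
  obtain ⟨p₀, p₁, hne⟩ := Fintype.exists_pair_of_one_lt_card (by omega : 1 < Fintype.card Ω)
  have hBdiag : ∀ p, (A * Aᵀ) p p = (a : ℤ) := by
    intro p
    rw [← hrow p]
    simp only [Matrix.mul_apply, Matrix.transpose_apply]
    refine Finset.sum_congr rfl (fun q _ => ?_)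
    show (if R p q then (1 : ℤ) else 0) * (if R p q then (1 : ℤ) else 0)
      = if R p q then (1 : ℤ) else 0
    split_ifs <;> simp
  set lam := (A * Aᵀ) p₀ p₁ with hlam
  set c := (a : ℤ) - lam with hc
  have hAAT : A * Aᵀ = c • (1 : Matrix Ω Ω ℤ) + lam • J := by
    ext p q
    by_cases hpq : p = q
    · subst hpq
      rw [hBdiag]
      simp only [Matrix.add_apply, Matrix.smul_apply, hJa, Matrix.one_apply_eq, smul_eq_mul,
        mul_one]
      rw [hc]; ring
    · obtain ⟨g, rfl, rfl⟩ := h2' hne hpq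
      rw [hB]
      simp only [Matrix.add_apply, Matrix.smul_apply, hJa, Matrix.one_apply_ne hpq, smul_eq_mul,
        mul_one, mul_zero, zero_add]
      rfl
  set m := orderOf α with hm
  have hαm : α ^ m = 1 := pow_orderOf_eq_one α
  have hinvm : ∀ (g : G) (p q : Ω), (A ^ m) (g • p) (g • q) = (A ^ m) p q := by
    intro g p q
    have h1 := hpow m g p q
    rwa [hαm, MulAut.one_apply] at h1
  set y := (A ^ m) p₀ p₁ with hy
  set x := (A ^ m) p₀ p₀ - y with hx
  have hAm : A ^ m = x • (1 : Matrix Ω Ω ℤ) + y • J := by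
    ext p q
    by_cases hpq : p = q
    · subst hpq
      obtain ⟨g, rfl⟩ := MulAction.exists_smul_eq G p₀ p
      rw [hinvm]
      simp only [Matrix.add_apply, Matrix.smul_apply, hJa, Matrix.one_apply_eq, smul_eq_mul,
        mul_one]
      rw [hx]; ring
    · obtain ⟨g, rfl, rfl⟩ := h2' hne hpq
      rw [hinvm]
      simp only [Matrix.add_apply, Matrix.smul_apply, hJa, Matrix.one_apply_ne hpq, smul_eq_mul,
        mul_one, mul_zero, zero_add]
      rfl
  have hprod : ∀ k : ℕ, ∃ μ : ℤ, A ^ k * (A ^ k)ᵀ = (c ^ k) • (1 : Matrix Ω Ω ℤ) + μ • J := by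
    intro k
    induction k with
    | zero => exact ⟨0, by simp⟩
    | succ k ih =>
      obtain ⟨μ, hμ⟩ := ih
      refine ⟨c * μ + lam * (a : ℤ) ^ k * (a : ℤ) ^ k, ?_⟩
      have eA : A ^ (k + 1) = A ^ k * A := pow_succ A k
      have e1 : A ^ (k + 1) * (A ^ (k + 1))ᵀ = A ^ k * (A * Aᵀ) * (A ^ k)ᵀ := by
        rw [eA, Matrix.transpose_mul]
        simp only [Matrix.mul_assoc]
      rw [e1, hAAT, Matrix.mul_add, Matrix.add_mul, Matrix.mul_smul, Matrix.smul_mul,
        Matrix.mul_one, hμ, Matrix.mul_smul, Matrix.smul_mul, hAkJ k, Matrix.smul_mul, hJAk k]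
      ext p q
      simp only [Matrix.add_apply, Matrix.smul_apply, smul_eq_mul]
      ring
  obtain ⟨μ, hμ⟩ := hprod m
  have hT : (x • (1 : Matrix Ω Ω ℤ) + y • J)ᵀ = x • (1 : Matrix Ω Ω ℤ) + y • J := by
    ext p q
    simp only [Matrix.transpose_apply, Matrix.add_apply, Matrix.smul_apply, Matrix.one_apply, hJa]
    rw [if_congr (eq_comm (a := q) (b := p)) rfl rfl]
  have hexp : (x • (1 : Matrix Ω Ω ℤ) + y • J) * (x • (1 : Matrix Ω Ω ℤ) + y • J)
      = (x * x) • (1 : Matrix Ω Ω ℤ) + (2 * x * y + y * y * n) • J := by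
    rw [Matrix.add_mul, Matrix.mul_add, Matrix.mul_add]
    simp only [Matrix.smul_mul, Matrix.mul_smul, Matrix.one_mul, Matrix.mul_one, hJJ]
    ext p q
    simp only [Matrix.add_apply, Matrix.smul_apply, smul_eq_mul]
    ring
  rw [hAm, hT, hexp] at hμ
  have e1 := congrFun (congrFun hμ p₀) p₀
  have e2 := congrFun (congrFun hμ p₀) p₁
  simp only [Matrix.add_apply, Matrix.smul_apply, smul_eq_mul, Matrix.one_apply_eq,
    Matrix.one_apply_ne hne, hJa, mul_one, mul_zero, zero_add] at e1 e2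
  have hx2 : x ^ 2 = c ^ m := by linarith
  have hxy : x + y * n = (a : ℤ) ^ m := by
    have h1 := hAkJ m
    rw [hAm, Matrix.add_mul, Matrix.smul_mul, Matrix.smul_mul, Matrix.one_mul, hJJ] at h1
    have h2 := congrFun (congrFun h1 p₀) p₀
    simp only [Matrix.add_apply, Matrix.smul_apply, smul_eq_mul, hJa, mul_one] at h2
    linarith
  have hcl : c + lam * n = (a : ℤ) * a := by
    have h1 : A * Aᵀ * J = ((a : ℤ) * a) • J := by
      have h3 := hAkJ 1
      rw [pow_one, pow_one] at h3
      rw [Matrix.mul_assoc, hATJ, Matrix.mul_smul, h3, smul_smul]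
    rw [hAAT, Matrix.add_mul, Matrix.smul_mul, Matrix.smul_mul, Matrix.one_mul, hJJ] at h1
    have h2 := congrFun (congrFun h1 p₀) p₀
    simp only [Matrix.add_apply, Matrix.smul_apply, smul_eq_mul, hJa, mul_one] at h2
    linarith
  have hcc : c * ((n : ℤ) - 1) = a * ((n : ℤ) - a) := by
    have : lam = (a : ℤ) - c := by rw [hc]; ring
    rw [this] at hcl
    linear_combination (-1 : ℤ) * hcl
  exact nt_core n a m x y c hn2 ha1 han' hk hα hcc hx2 hxy

/-- all point stabilizers of a transitive group have the same order -/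
theorem stab_card_eq (G : Subgroup (Equiv.Perm Ω)) [MulAction.IsPretransitive G Ω] (o ω' : Ω) :
    Nat.card (MulAction.stabilizer G ω') = Nat.card (MulAction.stabilizer G o) := by
  have h1 := Subgroup.card_mul_index (MulAction.stabilizer G ω')
  have h2 := Subgroup.card_mul_index (MulAction.stabilizer G o)
  rw [MulAction.index_stabilizer_of_transitive] at h1 h2
  have h0 : Nat.card Ω ≠ 0 := by
    rw [Nat.card_eq_fintype_card]
    exact (Fintype.card_pos_iff.2 ⟨o⟩).ne'
  exact Nat.eq_of_mul_eq_mul_right (Nat.pos_of_ne_zero h0) (h1.trans h2.symm)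

/-- the full statement: a doubly transitive group, an automorphism of odd order, and an orbit of
the image of a point stabilizer of length coprime to the degree -/
theorem perm_main (G : Subgroup (Equiv.Perm Ω)) (h2 : MulAction.IsMultiplyPretransitive G Ω 2)
    (o : Ω) (α : MulAut G) (hα : Odd (orderOf α)) (ω : Ω)
    (hk : (Nat.card (MulAction.orbit ((MulAction.stabilizer G o).map α.toMonoidHom) ω)).Coprime
      (Fintype.card Ω)) :
    (∃ σ : Equiv.Perm Ω, σ ∈ Subgroup.normalizer (G : Set (Equiv.Perm Ω)) ∧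
      ∀ g : G, ((α g : G) : Equiv.Perm Ω) = σ * (g : Equiv.Perm Ω) * σ⁻¹) ∧
    (Nat.card (MulAction.orbit ((MulAction.stabilizer G o).map α.toMonoidHom) ω) = 1 ∨
    Nat.card (MulAction.orbit ((MulAction.stabilizer G o).map α.toMonoidHom) ω)
      = Fintype.card Ω - 1) := by
  classical
  haveI : MulAction.IsPretransitive G Ω := MulAction.isPretransitive_of_is_two_pretransitive
  have hcard := orbit_card G h2 o α hα ω hk
  refine ⟨?_, hcard⟩
  set K := (MulAction.stabilizer G o).map α.toMonoidHom with hK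
  have hacard : Nat.card (MulAction.orbit K ω)
      = (Finset.univ.filter (fun p => p ∈ MulAction.orbit K ω)).card := by
    rw [Nat.card_eq_fintype_card]
    exact Fintype.card_subtype _
  have hn1 : 1 ≤ Fintype.card Ω := Fintype.card_pos_iff.2 ⟨o⟩
  have hex : ∃ ω' : Ω, K ≤ MulAction.stabilizer G ω' := by
    rcases hcard with h1 | h1
    · refine ⟨ω, ?_⟩
      intro k hk'
      rw [MulAction.mem_stabilizer_iff]
      haveI hsub : Subsingleton (MulAction.orbit K ω) := (Nat.card_eq_one_iff_unique.1 h1).1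
      have h3 := Subsingleton.elim (⟨k • ω, ⟨⟨k, hk'⟩, rfl⟩⟩ : MulAction.orbit K ω)
        ⟨ω, MulAction.mem_orbit_self ω⟩
      exact congrArg Subtype.val h3
    · have h3 : (Finset.univ.filter (fun p => p ∈ MulAction.orbit K ω))ᶜ.card = 1 := by
        rw [Finset.card_compl, ← hacard, h1]
        omega
      obtain ⟨ω', hω'⟩ := Finset.card_eq_one.1 h3
      have hnot : ω' ∉ MulAction.orbit K ω := by
        have : ω' ∈ (Finset.univ.filter (fun p => p ∈ MulAction.orbit K ω))ᶜ := by
          rw [hω']; exact Finset.mem_singleton_self _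
        simpa using this
      refine ⟨ω', ?_⟩
      intro k hk'
      rw [MulAction.mem_stabilizer_iff]
      have hmem : k • ω' ∈ (Finset.univ.filter (fun p => p ∈ MulAction.orbit K ω))ᶜ := by
        rw [Finset.mem_compl, Finset.mem_filter]
        rintro ⟨-, hin⟩
        apply hnot
        have h4 : MulAction.orbit K ((⟨k, hk'⟩ : K) • ω') = MulAction.orbit K ω :=
          MulAction.orbit_eq_iff.2 hin
        rw [← h4]
        exact MulAction.mem_orbit_smul _ _
      rw [hω'] at hmem
      exact Finset.mem_singleton.1 hmem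
  obtain ⟨ω', hle⟩ := hex
  have hst : K = MulAction.stabilizer G ω' := by
    apply Subgroup.eq_of_le_of_card_ge hle
    rw [stab_card_eq G o ω', hK, Subgroup.card_map_of_injective α.injective]
  exact perm_of_stab G α o ω' hst

/-- the Hall point stabilizer version -/
theorem perm_hall (G : Subgroup (Equiv.Perm Ω)) (h2 : MulAction.IsMultiplyPretransitive G Ω 2)
    (o : Ω)
    (hHall : (Nat.card (MulAction.stabilizer G o)).Coprime (MulAction.stabilizer G o).index)
    (α : MulAut G) (hα : Odd (orderOf α)) :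
    ∃ σ : Equiv.Perm Ω, σ ∈ Subgroup.normalizer (G : Set (Equiv.Perm Ω)) ∧
      ∀ g : G, ((α g : G) : Equiv.Perm Ω) = σ * (g : Equiv.Perm Ω) * σ⁻¹ := by
  classical
  haveI : MulAction.IsPretransitive G Ω := MulAction.isPretransitive_of_is_two_pretransitive
  refine (perm_main G h2 o α hα o ?_).1
  set K := (MulAction.stabilizer G o).map α.toMonoidHom with hK
  have h1 : Nat.card (MulAction.orbit K o) ∣ Nat.card K := by
    have h3 := MulAction.index_stabilizer K o
    rw [← Nat.card_coe_set_eq] at h3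
    rw [← h3]
    exact Subgroup.index_dvd_card _
  have h3 : Nat.card K = Nat.card (MulAction.stabilizer G o) := by
    rw [hK, Subgroup.card_map_of_injective α.injective]
  have h4 : (MulAction.stabilizer G o).index = Fintype.card Ω := by
    rw [MulAction.index_stabilizer_of_transitive, Nat.card_eq_fintype_card]
  rw [h4, ← h3] at hHall
  exact Nat.Coprime.coprime_dvd_left h1 hHall

end Cfsg.Agent.Helper23.TwoTrAut
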